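import Cfsg.Agent.Lib.Alt.Mult

/-!
# Degrees of projective representations of alternating groups: set-up
-/

set_option autoImplicit false

namespace Cfsg.Lib.Alt

open Subgroup Equiv Equiv.Perm Cfsg.Lib.Pres Module
open scoped commutatorElement

variable {Ω : Type} [Fintype Ω] [DecidableEq Ω] {Γ : Type} [Group Γ]

omit [Fintype Ω] in
theorem c3_a {a b c : Ω} (h2 : a ≠ c) (h3 : b ≠ c) : c3 a b c a = c := by
  simp [c3]

omit [Fintype Ω] in
theorem c3_b {a b c : Ω} (h1 : a ≠ b) (h2 : a ≠ c) : c3 a b c b = a := by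
  simp [c3, swap_apply_of_ne_of_ne h2 h1]

omit [Fintype Ω] in
theorem c3_c {a b c : Ω} (h2 : a ≠ c) (h3 : b ≠ c) : c3 a b c c = b := by
  simp [c3, swap_apply_of_ne_of_ne h2.symm h3.symm]

theorem exists_altOn_map {S : Finset Ω} {m : ℕ} (hm : m + 2 ≤ S.card) {v w : Fin m → Ω}
    (hv : Function.Injective v) (hw : Function.Injective w) (hvS : ∀ i, v i ∈ S) (hwS : ∀ i, w i ∈ S) :
    ∃ g ∈ altOn (S : Set Ω), ∀ i, g (v i) = w i := by
  obtain ⟨π, hπ⟩ := Equiv.Perm.exists_extending_pair (f := fun i => (⟨v i, hvS i⟩ : S))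
    (g := fun i => (⟨w i, hwS i⟩ : S)) (fun i j h => hv (congrArg Subtype.val h))
    (fun i j h => hw (congrArg Subtype.val h))
  have h1 : ∀ i, ofSubtype π (v i) = w i := fun i => by
    rw [ofSubtype_apply_of_mem π (hvS i)]; exact congrArg Subtype.val (hπ i)
  have h2 : ∀ x ∉ (S : Set Ω), ofSubtype π x = x := fun x hx => ofSubtype_apply_of_not_mem π hx
  rcases Int.units_eq_one_or (sign (ofSubtype π)) with h | h
  · exact ⟨_, ⟨h, h2⟩, h1⟩
  · have : 1 < (S \ Finset.univ.image w).card := by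
      have := Finset.le_card_sdiff (Finset.univ.image w) S
      have := Finset.card_image_le (s := Finset.univ) (f := w)
      simp only [Finset.card_univ, Fintype.card_fin] at this
      omega
    obtain ⟨x, hx, y, hy, hxy⟩ := Finset.one_lt_card.1 this
    simp only [Finset.mem_sdiff, Finset.mem_image, Finset.mem_univ, true_and, not_exists] at hx hy
    refine ⟨swap x y * ofSubtype π, ⟨by simp [h, hxy], fun z hz => ?_⟩, fun i => ?_⟩
    · rw [mul_apply, h2 z hz, swap_apply_of_ne_of_ne (fun h => hz (by rw [h]; exact hx.1))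
        fun h => hz (by rw [h]; exact hy.1)]
    · rw [mul_apply, h1, swap_apply_of_ne_of_ne (hx.2 i) (hy.2 i)]

theorem exists_notMem_of_card {S T : Finset Ω} (h : T.card < S.card) : ∃ x ∈ S, x ∉ T :=
  Finset.exists_mem_notMem_of_card_lt_card h

/-- Three distinct points of `S`. -/
structure Tri (S : Finset Ω) (a b c : Ω) : Prop where
  ma : a ∈ S
  mb : b ∈ S
  mc : c ∈ S
  ab : a ≠ b
  ac : a ≠ c
  bc : b ≠ c

omit [Fintype Ω] [DecidableEq Ω] in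
theorem Tri.mono {S T : Finset Ω} {a b c : Ω} (h : Tri S a b c) (hST : S ⊆ T) : Tri T a b c :=
  ⟨hST h.ma, hST h.mb, hST h.mc, h.ab, h.ac, h.bc⟩

omit [Fintype Ω] in
theorem exists_tri {S : Finset Ω} (h : 3 ≤ S.card) : ∃ a b c, Tri S a b c := by
  obtain ⟨a, b, c, h1, h2, h3, h4, h5, h6⟩ := Finset.two_lt_card_iff.1 h
  exact ⟨a, b, c, h1, h2, h3, h4, h5, h6⟩

/-- A cover of the alternating group with chosen lifts of the `3`-cycles. -/
structure Cov (τ : Γ →* Perm Ω) (X : Ω → Ω → Ω → Γ) (ζ : Γ) : Prop where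
  lift : ∀ π, sign π = 1 → ∃ g, τ g = π
  tX : ∀ {a b c}, a ≠ b → a ≠ c → b ≠ c → τ (X a b c) = c3 a b c
  cube : ∀ {a b c}, a ≠ b → a ≠ c → b ≠ c → X a b c ^ 3 = 1
  conj : ∀ g {a b c}, a ≠ b → a ≠ c → b ≠ c → g * X a b c * g⁻¹ = X (τ g a) (τ g b) (τ g c)
  inv : ∀ {a b c}, a ≠ b → a ≠ c → b ≠ c → X b a c = (X a b c)⁻¹
  sq : ∀ {a b c d}, a ≠ b → a ≠ c → b ≠ c → a ≠ d → b ≠ d → c ≠ d → (X a b c * X a b d) ^ 2 = ζ
  zsq : ζ * ζ = 1
  zc : ∀ g, g * ζ = ζ * g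
  tz : τ ζ = 1
  ker : ∀ g, τ g = 1 → g = 1 ∨ g = ζ

theorem exists_cov [Finite Γ] {σ : Γ →* alternatingGroup Ω} (hσ : IsStemExtension σ)
    (h8 : 8 ≤ Fintype.card Ω) : ∃ X ζ, Cov (tau σ) X ζ := by
  obtain ⟨v⟩ : Nonempty (Fin 4 ↪ Ω) := Function.Embedding.nonempty_of_card_le (by simp; omega)
  have hv : ∀ {i j : Fin 4}, i ≠ j → v i ≠ v j := fun h => v.injective.ne h
  have hk := card_ker_le_of_eight hσ (by rwa [Nat.card_eq_fintype_card]) (hv (i := 0) (j := 1) (by decide))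
  have hk2 : ∀ z ∈ σ.ker, ∀ z' ∈ σ.ker, z ≠ 1 → z' = 1 ∨ z' = z := fun z hz z' hz' h1 => by
    by_contra! hc
    have := Set.ncard_le_ncard (s := {1, z, z'}) (t := σ.ker) (by
      rintro _ (rfl | rfl | rfl) <;> simp [hz, hz'])
    rw [Set.ncard_eq_three.2 ⟨1, z, z', h1.symm, hc.1.symm, hc.2.symm, rfl⟩] at this
    change 3 ≤ Nat.card σ.ker at this
    omega
  have hk3 : ∀ z ∈ σ.ker, z * z = 1 := fun z hz => by
    by_cases h1 : z = 1
    · simp [h1]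
    · exact (hk2 z hz _ (mul_mem hz hz) h1).resolve_right (by simpa using h1)
  have hu : ∀ a b c : Ω, a ≠ b → a ≠ c → b ≠ c → ∃! x, x ^ 3 = 1 ∧ tau σ x = c3 a b c :=
    fun a b c h1 h2 h3 => exists_cube hσ.1 hσ.2.1 h1 (m := 4) (fun z hz => by
      rw [show z ^ 4 = z * z * (z * z) by simp only [pow_succ, pow_zero, one_mul, mul_assoc], hk3 z hz,
        one_mul]) rfl c h2.symm h3.symm
  choose! X hX uX using hu
  have hc : ∀ g {a b c}, a ≠ b → a ≠ c → b ≠ c →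
      g * X a b c * g⁻¹ = X (tau σ g a) (tau σ g b) (tau σ g c) := fun g a b c h1 h2 h3 =>
    uX _ _ _ ((tau σ g).injective.ne h1) ((tau σ g).injective.ne h2) ((tau σ g).injective.ne h3) _
      ⟨by rw [conj_pow, (hX a b c h1 h2 h3).1]; simp, by
        rw [map_mul, map_mul, map_inv, (hX a b c h1 h2 h3).2, conj_c3]⟩
  have hK : ∀ {a b c d}, a ≠ b → a ≠ c → b ≠ c → a ≠ d → b ≠ d → c ≠ d →
      (X a b c * X a b d) ^ 2 ∈ σ.ker := fun {a b c d} h1 h2 h3 h4 h5 h6 =>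
    Subtype.ext (show tau σ _ = 1 by
      rw [map_pow, map_mul, (hX a b c h1 h2 h3).2, (hX a b d h1 h4 h5).2,
        c3_sq_rel h1 h2.symm h4.symm h5.symm h6])
  have hz := hK (hv (i := 0) (j := 1) (by decide)) (hv (i := 0) (j := 2) (by decide))
    (hv (i := 1) (j := 2) (by decide)) (hv (i := 0) (j := 3) (by decide))
    (hv (i := 1) (j := 3) (by decide)) (hv (i := 2) (j := 3) (by decide))
  have hs : ∀ {a b c d}, a ≠ b → a ≠ c → b ≠ c → a ≠ d → b ≠ d → c ≠ d →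
      (X a b c * X a b d) ^ 2 = (X (v 0) (v 1) (v 2) * X (v 0) (v 1) (v 3)) ^ 2 := by
    intro a b c d h1 h2 h3 h4 h5 h6
    obtain ⟨π, hπ, hπ'⟩ := exists_altOn_map (S := Finset.univ) (m := 4) (by simp; omega)
      (v := ![a, b, c, d]) (w := v) (by
        intro i j; fin_cases i <;> fin_cases j <;> simp [*, Ne.symm]) v.injective (by simp) (by simp)
    obtain ⟨g, rfl⟩ := lift_of_sign hσ.1 hπ.1
    rw [← hπ' 0, ← hπ' 1, ← hπ' 2, ← hπ' 3]
    simp only [Matrix.cons_val_zero, Matrix.cons_val_one, Matrix.cons_val]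
    rw [← hc g h1 h2 h3, ← hc g h1 h4 h5, conj_mul, conj_pow,
      mem_center_iff.1 (hσ.2.1 (hK h1 h2 h3 h4 h5 h6)), mul_inv_cancel_right]
  refine ⟨X, _, fun π h => lift_of_sign hσ.1 h, fun h1 h2 h3 => (hX _ _ _ h1 h2 h3).2,
    fun h1 h2 h3 => (hX _ _ _ h1 h2 h3).1, hc, fun {a b c} h1 h2 h3 =>
      (uX _ _ _ h1.symm h3 h2 _ ⟨by rw [inv_pow, (hX a b c h1 h2 h3).1, inv_one], by
        rw [map_inv, (hX a b c h1 h2 h3).2, c3_swap h2.symm h3.symm]⟩).symm,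
    hs, hk3 _ hz, fun g => mem_center_iff.1 (hσ.2.1 hz) g, congrArg Subtype.val hz, fun g hg => ?_⟩
  have hg' : g ∈ σ.ker := Subtype.ext hg
  by_cases h1 : (X (v 0) (v 1) (v 2) * X (v 0) (v 1) (v 3)) ^ 2 = 1
  swap
  · exact hk2 _ hz g hg' h1
  left
  have h01 := hv (i := 0) (j := 1) (by decide)
  obtain ⟨ψ, p1, p2⟩ := carmichael_univ h01 (X (v 0) (v 1))
    (fun i i1 i2 => (hX _ _ _ h01 i1.symm i2.symm).1) fun i i1 i2 j j1 j2 ij =>
      (hs h01 i1.symm i2.symm j1.symm j2.symm ij).trans h1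
  have p3 : ∀ π ∈ alternatingGroup Ω, tau σ (ψ π) = π := fun π hπ => by
    rw [← closure_carm_univ h01] at hπ p1
    refine PHom.ext (p1.comp (tau σ)) (PHom.of_hom (MonoidHom.id _) _) ?_ hπ
    rintro _ ⟨i, -, i1, i2, rfl⟩
    exact (congrArg (tau σ) (p2 i i1 i2)).trans (hX _ _ _ h01 i1.symm i2.symm).2
  have p4 : ∀ x : Γ, ∃ z ∈ center Γ, x = ψ (σ x) * z := fun x =>
    ⟨_, hσ.2.1 (mem_ker_of_eq (x := ψ (σ x)) (y := x) (p3 _ (σ x).2)), by simp⟩
  have p5 : commutator Γ ≤ p1.toHom.range := by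
    rw [commutator_def, commutator_le]
    intro x _ y _
    obtain ⟨z, hz, hx⟩ := p4 x
    obtain ⟨w, hw, hy⟩ := p4 y
    refine ⟨⁅σ x, σ y⁆, ?_⟩
    rw [map_commutatorElement]
    change ⁅ψ (σ x), ψ (σ y)⁆ = _
    nth_rewrite 2 [hx, hy]
    have a := mem_center_iff.1 hz
    have b := mem_center_iff.1 hw
    simp only [commutatorElement_def, mul_inv_rev, mul_assoc]
    rw [← mul_assoc w, ← b z⁻¹, mul_assoc, ← mul_assoc w, ← b, mul_assoc, mul_inv_cancel_left,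
      ← mul_assoc z, ← a, mul_assoc, mul_inv_cancel_left]
  obtain ⟨π, rfl⟩ := p5 (hσ.2.2 hg')
  obtain rfl : π = 1 := Subtype.ext ((p3 π π.2).symm.trans hg)
  exact map_one _

/-- The preimage of the alternating group on `S`. -/
def GS (τ : Γ →* Perm Ω) (S : Finset Ω) : Subgroup Γ := (altOn (S : Set Ω)).comap τ

theorem GS_mono (τ : Γ →* Perm Ω) {S T : Finset Ω} (h : S ⊆ T) : GS τ S ≤ GS τ T :=
  comap_mono (altOn_mono h)

theorem GS_apply {τ : Γ →* Perm Ω} {S : Finset Ω} {g : Γ} (hg : g ∈ GS τ S) {x : Ω} (hx : x ∈ S) :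
    τ g x ∈ S := by
  by_contra h
  exact h (by rwa [(τ g).injective (hg.2 _ h)])

theorem GS_fix {τ : Γ →* Perm Ω} {S : Finset Ω} {g : Γ} (hg : g ∈ GS τ S) {x : Ω} (hx : x ∉ S) :
    τ g x = x := hg.2 x hx

theorem Tri.map {τ : Γ →* Perm Ω} {S : Finset Ω} {a b c : Ω} (h : Tri S a b c) {g : Γ}
    (hg : g ∈ GS τ S) : Tri S (τ g a) (τ g b) (τ g c) :=
  ⟨GS_apply hg h.ma, GS_apply hg h.mb, GS_apply hg h.mc, (τ g).injective.ne h.ab,
    (τ g).injective.ne h.ac, (τ g).injective.ne h.bc⟩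

namespace Cov

variable {τ : Γ →* Perm Ω} {X : Ω → Ω → Ω → Γ} {ζ : Γ} {S : Finset Ω} {a b c d e f : Ω}

theorem mem (C : Cov τ X ζ) (h : Tri S a b c) : X a b c ∈ GS τ S := by
  rw [GS, mem_comap, C.tX h.ab h.ac h.bc]
  exact c3_mem h.ma h.mb h.mc h.ab h.bc.symm

theorem zmem (C : Cov τ X ζ) (S : Finset Ω) : ζ ∈ GS τ S := by
  rw [GS, mem_comap, C.tz]; exact one_mem _

theorem exists_map (C : Cov τ X ζ) {m : ℕ} (hm : m + 2 ≤ S.card) {v w : Fin m → Ω}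
    (hv : Function.Injective v) (hw : Function.Injective w) (hvS : ∀ i, v i ∈ S)
    (hwS : ∀ i, w i ∈ S) : ∃ g ∈ GS τ S, ∀ i, τ g (v i) = w i := by
  obtain ⟨π, hπ, h⟩ := exists_altOn_map hm hv hw hvS hwS
  obtain ⟨g, rfl⟩ := C.lift π hπ.1
  exact ⟨g, hπ, h⟩

theorem exists_tri_map (C : Cov τ X ζ) (h5 : 5 ≤ S.card) (h : Tri S a b c) (h' : Tri S d e f) :
    ∃ g ∈ GS τ S, τ g a = d ∧ τ g b = e ∧ τ g c = f := by
  obtain ⟨g, hg, h1⟩ := C.exists_map (m := 3) h5 (v := ![a, b, c]) (w := ![d, e, f])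
    (by intro i j; fin_cases i <;> fin_cases j <;> simp [h.ab, h.ac, h.bc, h.ab.symm, h.ac.symm, h.bc.symm])
    (by intro i j; fin_cases i <;> fin_cases j <;>
      simp [h'.ab, h'.ac, h'.bc, h'.ab.symm, h'.ac.symm, h'.bc.symm])
    (by intro i; fin_cases i; exacts [h.ma, h.mb, h.mc])
    (by intro i; fin_cases i; exacts [h'.ma, h'.mb, h'.mc])
  exact ⟨g, hg, h1 0, h1 1, h1 2⟩

theorem le_of_gens (C : Cov τ X ζ) (h4 : 4 ≤ S.card) (ha : a ∈ S) (hb : b ∈ S) (hab : a ≠ b)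
    {M : Subgroup Γ} (hM : ∀ i, Tri S a b i → X a b i ∈ M) : GS τ S ≤ M := fun g hg => by
  have h1 : altOn (S : Set Ω) ≤ M.map τ := by
    rw [← closure_carm (S := (S : Set Ω)) ha hb hab, closure_le]
    rintro _ ⟨i, hi, i1, i2, rfl⟩
    exact ⟨_, hM i ⟨ha, hb, hi, hab, i1.symm, i2.symm⟩, C.tX hab i1.symm i2.symm⟩
  obtain ⟨h, hh, he⟩ := h1 hg
  have h2 : ζ ∈ M := by
    obtain ⟨c, hc, hc'⟩ := exists_notMem_of_card (S := S) (T := {a, b})
      (lt_of_le_of_lt Finset.card_le_two (by omega))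
    obtain ⟨d, hd, hd'⟩ := exists_notMem_of_card (S := S) (T := {a, b, c})
      (lt_of_le_of_lt Finset.card_le_three (by omega))
    simp only [Finset.mem_insert, Finset.mem_singleton, not_or] at hc' hd'
    rw [← C.sq hab (Ne.symm hc'.1) (Ne.symm hc'.2) (Ne.symm hd'.1) (Ne.symm hd'.2.1) (Ne.symm hd'.2.2)]
    exact pow_mem (mul_mem (hM c ⟨ha, hb, hc, hab, Ne.symm hc'.1, Ne.symm hc'.2⟩)
      (hM d ⟨ha, hb, hd, hab, Ne.symm hd'.1, Ne.symm hd'.2.1⟩)) 2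
  rcases C.ker (h⁻¹ * g) (by rw [map_mul, map_inv, he, inv_mul_cancel]) with h3 | h3
  · rwa [← inv_mul_eq_one.1 h3]
  · rw [inv_mul_eq_iff_eq_mul.1 h3]; exact mul_mem hh h2

theorem comm (C : Cov τ X ζ) (h : Tri S a b c) {g : Γ} (hg : g ∈ GS τ (S \ {a, b, c})) :
    g * X a b c = X a b c * g := by
  have := C.conj g h.ab h.ac h.bc
  rwa [GS_fix hg (by simp), GS_fix hg (by simp), GS_fix hg (by simp), mul_inv_eq_iff_eq_mul] at this

theorem rot (C : Cov τ X ζ) (h : Tri S a b c) : X c a b = X a b c := by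
  have := C.conj (X a b c) h.ab h.ac h.bc
  rw [C.tX h.ab h.ac h.bc, c3_a h.ac h.bc, c3_b h.ab h.ac, c3_c h.ac h.bc] at this
  simpa using this.symm

theorem perf (C : Cov τ X ζ) (h5 : 5 ≤ S.card) : GS τ S ≤ ⁅GS τ S, GS τ S⁆ := by
  obtain ⟨a, b, c, h⟩ := exists_tri (S := S) (by omega)
  refine C.le_of_gens (by omega) h.ma h.mb h.ab fun c h => ?_
  obtain ⟨s, hs, s1, s2, s3⟩ := C.exists_tri_map h5 h ⟨h.mb, h.ma, h.mc, h.ab.symm, h.bc, h.ac⟩
  have h1 := C.conj s h.ab h.ac h.bc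
  rw [s1, s2, s3, C.inv h.ab h.ac h.bc] at h1
  have h2 := commutator_mem_commutator hs (C.mem h)
  rwa [commutatorElement_def, h1, ← mul_inv_rev, inv_eq_of_mul_eq_one_right (b := X a b c)
    (by rw [← C.cube h.ab h.ac h.bc]; simp [pow_succ])] at h2

end Cov

end Cfsg.Lib.Alt
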