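import Cfsg.Agent.Lib.Alt.DegR

/-!
# Degrees of projective representations of alternating groups: the deleted permutation module
-/

set_option autoImplicit false

namespace Cfsg.Lib.Alt

open Subgroup Equiv Equiv.Perm Cfsg.Lib.Pres Module

variable {Ω : Type} [Fintype Ω] [DecidableEq Ω] {Γ : Type} [Group Γ]
variable {k V : Type} [Field k] [AddCommGroup V] [Module k V]
variable {τ : Γ →* Perm Ω} {X : Ω → Ω → Ω → Γ} {ζ : Γ} {S T : Finset Ω} {a b c d e f : Ω}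
  {ρ : Γ → End k V} {g h : Γ}

theorem GS_sdiff {A : Finset Ω} (hg : g ∈ GS τ S) (h : ∀ x ∈ A, τ g x = x) : g ∈ GS τ (S \ A) :=
  ⟨hg.1, fun x hx => by
    by_cases hA : x ∈ A
    · exact h x hA
    · exact hg.2 x fun hS => hx (by simp [hA, show x ∈ S from hS])⟩

omit [Fintype Ω] in
theorem card_sdiff3 (h : Tri S a b c) : (S \ {a, b, c}).card + 3 = S.card := by
  rw [← Finset.card_sdiff_add_card_eq_card (s := {a, b, c}) (t := S)
    (by simp [Finset.insert_subset_iff, h.ma, h.mb, h.mc]),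
    Finset.card_eq_three.2 ⟨a, b, c, h.ab, h.ac, h.bc, rfl⟩]

omit [Fintype Ω] in
theorem exists_tri_sdiff {A : Finset Ω} (h : A.card + 3 ≤ S.card) : ∃ d e f, Tri (S \ A) d e f :=
  exists_tri (by have := Finset.le_card_sdiff A S; omega)

omit [Fintype Ω] in
theorem Tri.sdiff {A : Finset Ω} (h : Tri S d e f) (h1 : d ∉ A) (h2 : e ∉ A) (h3 : f ∉ A) :
    Tri (S \ A) d e f :=
  ⟨Finset.mem_sdiff.2 ⟨h.ma, h1⟩, Finset.mem_sdiff.2 ⟨h.mb, h2⟩, Finset.mem_sdiff.2 ⟨h.mc, h3⟩,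
    h.ab, h.ac, h.bc⟩

theorem Cov.ta (C : Cov τ X ζ) (h : Tri S a b c) : τ (X a b c) a = c := by
  rw [C.tX h.ab h.ac h.bc, c3_a h.ac h.bc]

theorem Cov.tb (C : Cov τ X ζ) (h : Tri S a b c) : τ (X a b c) b = a := by
  rw [C.tX h.ab h.ac h.bc, c3_b h.ab h.ac]

theorem Cov.tc (C : Cov τ X ζ) (h : Tri S a b c) : τ (X a b c) c = b := by
  rw [C.tX h.ab h.ac h.bc, c3_c h.ac h.bc]

theorem Cov.to (C : Cov τ X ζ) (h : Tri S a b c) {x : Ω} (h1 : x ≠ a) (h2 : x ≠ b) (h3 : x ≠ c) :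
    τ (X a b c) x = x := by
  rw [C.tX h.ab h.ac h.bc, c3_apply h1 h2 h3]

theorem Rp.finrank_range (R : Rp (GS τ S) ρ) (C : Cov τ X ζ) [FiniteDimensional k V]
    (h5 : 5 ≤ S.card) (h : Tri S a b c) (h' : Tri S d e f) :
    finrank k (LinearMap.range (ρ (X a b c) - 1)) ≤ finrank k (LinearMap.range (ρ (X d e f) - 1)) := by
  obtain ⟨g, hg, rfl, rfl, rfl⟩ := C.exists_tri_map h5 h h'
  rw [(Submodule.equivMapOfInjective _ (R.inj hg) _).finrank_eq]
  refine Submodule.finrank_mono ?_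
  rintro _ ⟨_, ⟨v, rfl⟩, rfl⟩
  exact ⟨ρ g v, by simp [R.conj C h hg]⟩

/-- A vector fixed by a two-point stabilizer. -/
theorem caseA_vec (C : Cov τ X ζ) (R : Rp (GS τ S) ρ) [FiniteDimensional k V] (h7 : 7 ≤ S.card)
    (hn : ∃ g ∈ GS τ S, ρ g ≠ 1) (hI : Irr (GS τ S) ρ)
    (hA : ∀ a b c d e f, Tri S a b c → Tri (S \ {a, b, c}) d e f → ∀ v,
      ρ (X d e f) (ρ (X a b c) v - v) = ρ (X a b c) v - v) (h : Tri S a b c) :
    ∃ w, w ≠ 0 ∧ (∀ g ∈ GS τ (S \ {a, b}), ρ g w = w) ∧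
      w + ρ (X a b c) w + ρ (X a b c) (ρ (X a b c) w) = 0 := by
  obtain ⟨d, hd, hd'⟩ := exists_notMem_of_card (S := S) (T := {a, b, c})
    (lt_of_le_of_lt Finset.card_le_three (by omega))
  obtain ⟨e, f, l, h'⟩ := exists_tri_sdiff (S := S) (A := {a, b, c, d})
    (by have := Finset.card_le_four (a := a) (b := b) (c := c) (d := d); omega)
  obtain ⟨he, hf, hl⟩ := (⟨h'.ma, h'.mb, h'.mc⟩ : _ ∧ _ ∧ _)
  simp only [Finset.mem_sdiff, Finset.mem_insert, Finset.mem_singleton, not_or] at hd' he hf hl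
  have hd2 : Tri S a b d := ⟨h.ma, h.mb, hd, h.ab, Ne.symm hd'.1, Ne.symm hd'.2.1⟩
  have h'' := h'.mono Finset.sdiff_subset
  have hW : LinearMap.range (ρ (X a b c) - 1) ⊓ LinearMap.range (ρ (X a b d) - 1) ≠ ⊥ := by
    intro h0
    set U := LinearMap.range (ρ (X a b c) - 1) ⊔ LinearMap.range (ρ (X a b d) - 1) with hU
    have h1 : ∀ i, Tri S a b i → ∀ v, ρ (X a b i) v - v ∈ U := fun i hi v => by
      by_cases hc : i = c
      · exact hc ▸ Submodule.mem_sup_left ⟨v, rfl⟩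
      by_cases hid : i = d
      · exact hid ▸ Submodule.mem_sup_right ⟨v, rfl⟩
      have t : Tri S c d i := ⟨h.mc, hd, hi.mc, Ne.symm hd'.2.2, Ne.symm hc, Ne.symm hid⟩
      set U' := LinearMap.range (ρ (X a b c) - 1) ⊔ LinearMap.range (ρ (X c d i) - 1) with hU'
      have m1 : X a b c ∈ R.into U' := ⟨C.mem h, fun v => Submodule.mem_sup_left ⟨v, rfl⟩⟩
      have m2 : X c d i ∈ R.into U' := ⟨C.mem t, fun v => Submodule.mem_sup_right ⟨v, rfl⟩⟩
      have ea := C.to t h.ac hd2.ac hi.ac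
      have eb := C.to t h.bc hd2.bc hi.bc
      have m3 := mul_mem (mul_mem m2 m1) (inv_mem m2)
      rw [C.conj _ h.ab h.ac h.bc, ea, eb, C.ta t] at m3
      have m4 := mul_mem (mul_mem m2 m3) (inv_mem m2)
      rw [C.conj _ h.ab hi.ac hi.bc, ea, eb, C.tc t] at m4
      have h2 : U = U' := Submodule.eq_of_le_of_finrank_le
        (sup_le le_sup_left (by rintro _ ⟨v, rfl⟩; exact m4.2 v)) (by
          have b1 := Submodule.finrank_sup_add_finrank_inf_eq
            (LinearMap.range (ρ (X a b c) - 1)) (LinearMap.range (ρ (X a b d) - 1))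
          have b2 := Submodule.finrank_add_le_finrank_add_finrank
            (LinearMap.range (ρ (X a b c) - 1)) (LinearMap.range (ρ (X c d i) - 1))
          have b3 := R.finrank_range C (by omega) t hd2
          rw [h0, finrank_bot] at b1
          rw [← hU] at b1
          rw [← hU'] at b2
          omega)
      exact h2 ▸ m3.2 v
    rcases hI U (R.inv_of_gens C (by omega) h.ma h.mb h.ab h1) with h2 | h2
    · exact R.ne_one C (by omega) h hn (LinearMap.ext fun v => by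
        simpa [h2, sub_eq_zero] using h1 c h v)
    · refine R.ne_one C (by omega) h'' hn (LinearMap.ext fun v => ?_)
      obtain ⟨_, ⟨x, rfl⟩, _, ⟨y, rfl⟩, rfl⟩ := Submodule.mem_sup.1 (h2.ge (Submodule.mem_top (x := v)))
      rw [map_add]
      exact congrArg₂ (· + ·) (hA _ _ _ _ _ _ h (h''.sdiff (by simp [he]) (by simp [hf]) (by simp [hl])) x)
        (hA _ _ _ _ _ _ hd2 (h''.sdiff (by simp [he]) (by simp [hf]) (by simp [hl])) y)
  obtain ⟨w, ⟨⟨x, hx⟩, y, hy⟩, hw⟩ := Submodule.exists_mem_ne_zero_of_ne_bot hW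
  refine ⟨w, hw, fun g hg => (R.mono (GS_mono τ Finset.sdiff_subset)).fix_of_gens C
    (by have := Finset.le_card_sdiff {a, b} S; have := Finset.card_le_two (a := a) (b := b); omega)
    (a := e) (b := f) (by simp [he]) (by simp [hf]) h'.ab (fun i hi => ?_) hg, ?_⟩
  · have hi' := hi.mc
    simp only [Finset.mem_sdiff, Finset.mem_insert, Finset.mem_singleton, not_or] at hi'
    have hi2 := hi.mono Finset.sdiff_subset
    by_cases hc : i = c
    · rw [← hy]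
      exact hA _ _ _ _ _ _ hd2 (hi2.sdiff (by simp [he]) (by simp [hf])
        (by simp [hc, h.ac.symm, h.bc.symm, Ne.symm hd'.2.2])) y
    · rw [← hx]
      exact hA _ _ _ _ _ _ h (hi2.sdiff (by simp [he]) (by simp [hf]) (by simp [hi', hc])) x
  · simp [← hx, R.cube C h]

/-- An equivariant antisymmetric cocycle. -/
theorem caseA_cocycle (C : Cov τ X ζ) (R : Rp (GS τ S) ρ) (h7 : 7 ≤ S.card)
    (hn : ∃ g ∈ GS τ S, ρ g ≠ 1) (hI : Irr (GS τ S) ρ) (h : Tri S a b c) {w : V} (hw : w ≠ 0)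
    (hf : ∀ g ∈ GS τ (S \ {a, b}), ρ g w = w)
    (hr : w + ρ (X a b c) w + ρ (X a b c) (ρ (X a b c) w) = 0) :
    ∃ F : Ω → Ω → V, (∀ g ∈ GS τ S, ∀ i ∈ S, ∀ j ∈ S, i ≠ j → ρ g (F i j) = F (τ g i) (τ g j)) ∧
      (∀ i ∈ S, ∀ j ∈ S, i ≠ j → F i j ≠ 0 ∧ F i j + F j i = 0) ∧
      ∀ i j l, Tri S i j l → F i j + F l i + F j l = 0 := by
  have key : ∀ i j, ∃ g, i ∈ S → j ∈ S → i ≠ j → g ∈ GS τ S ∧ τ g a = i ∧ τ g b = j := fun i j => by
    by_cases hh : i ∈ S ∧ j ∈ S ∧ i ≠ j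
    · obtain ⟨l, hl, hl'⟩ := exists_notMem_of_card (S := S) (T := {i, j})
        (lt_of_le_of_lt Finset.card_le_two (by omega))
      simp only [Finset.mem_insert, Finset.mem_singleton, not_or] at hl'
      obtain ⟨g, hg, g1, g2, -⟩ := C.exists_tri_map (by omega) h
        ⟨hh.1, hh.2.1, hl, hh.2.2, Ne.symm hl'.1, Ne.symm hl'.2⟩
      exact ⟨g, fun _ _ _ => ⟨hg, g1, g2⟩⟩
    · exact ⟨1, fun h1 h2 h3 => (hh ⟨h1, h2, h3⟩).elim⟩
  choose G hG using key
  set u : Ω → Ω → V := fun i j => ρ (G i j) w with hu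
  have e1 : ∀ g ∈ GS τ S, ρ g w = u (τ g a) (τ g b) := fun g hg => by
    obtain ⟨g0, g1, g2⟩ := hG _ _ (h.map hg).ma (h.map hg).mb (h.map hg).ab
    have := hf _ (GS_sdiff (A := {a, b}) (mul_mem (inv_mem g0) hg) fun x hx => by
      rw [map_mul, map_inv, Perm.mul_apply, inv_eq_iff_eq]
      rcases Finset.mem_insert.1 hx with rfl | hx
      · exact g1.symm
      · rw [Finset.mem_singleton.1 hx, g2])
    rw [R.app (inv_mem g0) hg] at this
    rw [← R.app_inv g0 (ρ g w), this]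
  have e2 : ∀ g ∈ GS τ S, ∀ i ∈ S, ∀ j ∈ S, i ≠ j → ρ g (u i j) = u (τ g i) (τ g j) :=
    fun g hg i hi j hj hij => by
      obtain ⟨g0, g1, g2⟩ := hG i j hi hj hij
      rw [hu]; dsimp only
      rw [← R.app hg g0, e1 _ (mul_mem hg g0), map_mul, Perm.mul_apply, Perm.mul_apply, g1, g2]
  have e0 : w = u a b := by simpa [R.one] using e1 1 (one_mem _)
  have e3 : ∀ i j l, Tri S i j l → u i j + u l i + u j l = 0 := fun i j l t => by
    obtain ⟨g, hg, rfl, rfl, rfl⟩ := C.exists_tri_map (by omega) h t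
    rw [e1 _ (C.mem h), C.ta h, C.tb h, e2 _ (C.mem h) _ h.mc _ h.ma h.ac.symm, C.ta h, C.tc h] at hr
    rw [← e2 g hg _ h.ma _ h.mb h.ab, ← e2 g hg _ h.mc _ h.ma h.ac.symm, ← e2 g hg _ h.mb _ h.mc h.bc,
      ← map_add, ← map_add, ← e0, hr, map_zero]
  have e4 : ∀ i ∈ S, ∀ j ∈ S, i ≠ j → ρ (G i j) (u a b + u b a) = u i j + u j i := fun i hi j hj hij => by
    obtain ⟨g0, g1, g2⟩ := hG i j hi hj hij
    rw [map_add, e2 _ g0 _ h.ma _ h.mb h.ab, e2 _ g0 _ h.mb _ h.ma h.ab.symm, g1, g2]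
  by_cases h0 : u a b + u b a = 0
  · refine ⟨u, e2, fun i hi j hj hij => ⟨fun h1 => hw (R.inj (hG i j hi hj hij).1
      (h1.trans (map_zero _).symm)), by rw [← e4 i hi j hj hij, h0, map_zero]⟩, e3⟩
  have e5 : ∀ i j l, Tri S i j l → u i j + u j i + (u l i + u i l) + (u j l + u l j) = 0 :=
    fun i j l t => by
      linear_combination (norm := abel) e3 i j l t + e3 j i l ⟨t.mb, t.ma, t.mc, t.ab.symm, t.bc, t.ac⟩
  have e6 : ∀ g ∈ GS τ S, ∀ i ∈ S, ∀ j ∈ S, i ≠ j →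
      ρ g (u i j + u j i) = u (τ g i) (τ g j) + u (τ g j) (τ g i) := fun g hg i hi j hj hij => by
    rw [map_add, e2 g hg i hi j hj hij, e2 g hg j hj i hi hij.symm]
  refine ⟨fun i j => u i j + u j i, e6, fun i hi j hj hij => ⟨fun h1 => h0 (R.inj (hG i j hi hj hij).1
    ((e4 i hi j hj hij).trans (h1.trans (map_zero _).symm))), ?_⟩, e5⟩
  by_cases h2 : (2 : k) = 0
  · linear_combination (norm := module) h2 • (u i j + u j i)
  refine (h0 (R.eq_zero_of_fix hI hn fun g hg => R.fix_of_gens C (by omega) h.ma h.mb h.ab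
    (fun i t => ?_) hg)).elim
  rw [e6 _ (C.mem t) _ h.ma _ h.mb h.ab, C.ta t, C.tb t]
  obtain ⟨l, m, n, t'⟩ := exists_tri_sdiff (S := S) (A := {a, b, i})
    (by have := Finset.card_le_three (a := a) (b := b) (c := i); omega)
  obtain ⟨hl, hm⟩ := (⟨t'.ma, t'.mb⟩ : _ ∧ _)
  simp only [Finset.mem_sdiff, Finset.mem_insert, Finset.mem_singleton, not_or] at hl hm
  refine smul_right_injective V h2 ?_
  linear_combination (norm := module)
    e5 a i l ⟨h.ma, t.mc, hl.1, t.ac, Ne.symm hl.2.1, Ne.symm hl.2.2.2⟩ +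
    e5 a i m ⟨h.ma, t.mc, hm.1, t.ac, Ne.symm hm.2.1, Ne.symm hm.2.2.2⟩ -
    e5 i l m ⟨t.mc, hl.1, hm.1, Ne.symm hl.2.2.2, Ne.symm hm.2.2.2, t'.ab⟩ -
    e5 a b l ⟨h.ma, h.mb, hl.1, h.ab, Ne.symm hl.2.1, Ne.symm hl.2.2.1⟩ -
    e5 a b m ⟨h.ma, h.mb, hm.1, h.ab, Ne.symm hm.2.1, Ne.symm hm.2.2.1⟩ +
    e5 b l m ⟨h.mb, hl.1, hm.1, Ne.symm hl.2.2.1, Ne.symm hm.2.2.1, t'.ab⟩

theorem caseA (C : Cov τ X ζ) (R : Rp (GS τ S) ρ) [FiniteDimensional k V] (h7 : 7 ≤ S.card)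
    (hn : ∃ g ∈ GS τ S, ρ g ≠ 1) (hI : Irr (GS τ S) ρ)
    (hA : ∀ a b c d e f, Tri S a b c → Tri (S \ {a, b, c}) d e f → ∀ v,
      ρ (X d e f) (ρ (X a b c) v - v) = ρ (X a b c) v - v) :
    S.card ≤ finrank k V + 2 ∧ ((S.card : k) ≠ 0 → S.card ≤ finrank k V + 1) := by
  obtain ⟨a, b, c, h⟩ := exists_tri (S := S) (by omega)
  obtain ⟨w, hw, hf, hr⟩ := caseA_vec C R h7 hn hI hA h
  obtain ⟨f, f1, f2, f3⟩ := caseA_cocycle C R h7 hn hI h hw hf hr
  set F : Ω → V := fun i => if i = a then 0 else f i a with hF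
  have g1 : ∀ i ∈ S, ∀ j ∈ S, i ≠ j → f i j = F i - F j := fun i hi j hj hij => by
    simp only [hF]
    split_ifs with h1 h2 h2
    · exact (hij (h1.trans h2.symm)).elim
    · rw [h1, zero_sub, eq_neg_iff_add_eq_zero]; exact (f2 a h.ma j hj (Ne.symm h2)).2
    · rw [h2, sub_zero]
    · linear_combination (norm := abel) f3 i j a ⟨hi, hj, h.ma, hij, h1, h2⟩ - (f2 i hi a h.ma h1).2
  have g2 : ∀ g ∈ GS τ S, ∀ i ∈ S, ρ g (F i) = F (τ g i) - F (τ g a) := fun g hg i hi => by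
    by_cases h1 : i = a
    · simp [hF, h1]
    · rw [← g1 _ (GS_apply hg hi) _ (GS_apply hg h.ma) ((τ g).injective.ne h1), ← f1 g hg i hi a h.ma h1]
      simp [hF, h1]
  have g3 : ∀ t : Ω → k, ∑ i ∈ S, t i = 0 → ∑ i ∈ S, t i • F i = 0 → ∀ i ∈ S, ∀ j ∈ S, t i = t j := by
    intro t t1 t2 i hi j hj
    by_contra hij
    have hij' : i ≠ j := fun h => hij (h ▸ rfl)
    obtain ⟨l, p, q, t'⟩ := exists_tri_sdiff (S := S) (A := {i, j})
      (by have := Finset.card_le_two (a := i) (b := j); omega)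
    obtain ⟨hl, hp, hq⟩ := (⟨t'.ma, t'.mb, t'.mc⟩ : _ ∧ _ ∧ _)
    simp only [Finset.mem_sdiff, Finset.mem_insert, Finset.mem_singleton, not_or] at hl hp hq
    have T1 : Tri S i j l := ⟨hi, hj, hl.1, hij', Ne.symm hl.2.1, Ne.symm hl.2.2⟩
    have T2 : Tri S i p q := ⟨hi, hp.1, hq.1, Ne.symm hp.2.1, Ne.symm hq.2.1, t'.bc⟩
    have b1 : ∑ m ∈ S, t m • (F (τ (X i j l) m) - F m) = 0 := by
      have := congrArg (ρ (X i j l)) t2
      rw [map_sum, map_zero, Finset.sum_congr rfl fun m hm => by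
        rw [map_smul, g2 _ (C.mem T1) m hm, smul_sub], Finset.sum_sub_distrib, ← Finset.sum_smul, t1,
        zero_smul, sub_zero] at this
      simp only [smul_sub, Finset.sum_sub_distrib, this, t2, sub_zero]
    rw [← Finset.sum_subset (s₁ := {i, j, l}) (by simp [Finset.insert_subset_iff, hi, hj, hl.1])
      (fun m _ hm => by
        simp only [Finset.mem_insert, Finset.mem_singleton, not_or] at hm
        rw [C.to T1 hm.1 hm.2.1 hm.2.2, sub_self, smul_zero]),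
      Finset.sum_insert (by simp [T1.ab, T1.ac]), Finset.sum_pair T1.bc, C.ta T1, C.tb T1, C.tc T1] at b1
    have b2 := congrArg (ρ (X i p q)) b1
    simp only [map_add, map_smul, map_sub, map_zero, g2 _ (C.mem T2) _ hi, g2 _ (C.mem T2) _ hj,
      g2 _ (C.mem T2) _ hl.1, C.ta T2, C.to T2 hij'.symm (Ne.symm hp.2.2) (Ne.symm hq.2.2),
      C.to T2 hl.2.1 t'.ab t'.ac] at b2
    refine (f2 i hi q hq.1 T2.ac).1 (smul_right_injective V (sub_ne_zero.2 hij) ?_)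
    rw [g1 i hi q hq.1 T2.ac]
    linear_combination (norm := module) b2 - b1
  let Ψ : (S → k) →ₗ[k] V × k := (Fintype.linearCombination k fun i : S => F i).prod
    (Fintype.linearCombination k fun _ : S => (1 : k))
  have g4 : ∀ t, Ψ t = 0 → (∀ i, t i = t ⟨a, h.ma⟩) ∧ (S.card : k) * t ⟨a, h.ma⟩ = 0 := fun t ht => by
    replace ht : ∑ i : S, t i • F i = 0 ∧ ∑ i : S, t i = 0 :=
      ⟨by simpa [Ψ, Fintype.linearCombination_apply] using congrArg Prod.fst ht,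
        by simpa [Ψ, Fintype.linearCombination_apply] using congrArg Prod.snd ht⟩
    have b1 : ∀ i, t i = t ⟨a, h.ma⟩ := fun i => by
      simpa [h.ma] using g3 (fun x => if hx : x ∈ S then t ⟨x, hx⟩ else 0)
        (by rw [← Finset.sum_coe_sort]; simpa using ht.2)
        (by rw [← Finset.sum_coe_sort]; simpa using ht.1) i i.2 a h.ma
    exact ⟨b1, by simpa [Finset.sum_congr rfl fun i _ => b1 i] using ht.2⟩
  constructor
  · simpa using LinearMap.finrank_le_finrank_of_injective (f := Ψ.prod (LinearMap.proj (⟨a, h.ma⟩ : S)))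
      ((injective_iff_map_eq_zero _).2 fun t ht => funext fun i =>
        ((g4 t (congrArg Prod.fst ht)).1 i).trans (congrArg Prod.snd ht))
  · intro h0
    simpa using LinearMap.finrank_le_finrank_of_injective (f := Ψ)
      ((injective_iff_map_eq_zero _).2 fun t ht => funext fun i =>
        ((g4 t ht).1 i).trans ((mul_eq_zero.1 (g4 t ht).2).resolve_left h0))

end Cfsg.Lib.Alt
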