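import Cfsg.Agent.Lib.Alt.DegB

/-!
# Degrees of projective representations of alternating groups: quadratic `3`-cycles
-/

set_option autoImplicit false

namespace Cfsg.Lib.Alt

open Subgroup Equiv Equiv.Perm Cfsg.Lib.Pres Module

variable {Ω : Type} [Fintype Ω] [DecidableEq Ω] {Γ : Type} [Group Γ]
variable {k V : Type} [Field k] [AddCommGroup V] [Module k V]
variable {τ : Γ →* Perm Ω} {X : Ω → Ω → Ω → Γ} {ζ : Γ} {S T : Finset Ω} {a b c d e f : Ω}
  {ρ : Γ → End k V} {g h : Γ}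

theorem cliff_gens [IsAlgClosed k] [FiniteDimensional k V] {m n : ℕ} (x : Fin m → End k V)
    (B : Fin m → Fin m → k) (hs : ∀ i j, B i j = B j i)
    (h1 : ∀ i j u, x i (x j u) + x j (x i u) = B i j • u) (h2 : ∀ i, ∃ q : k, ∀ u, x i (x i u) = q • u)
    (h3 : ∀ t : Fin m → k, (∀ j, ∑ i, t i * B i j = 0) → t = 0) (hn : 2 * n ≤ m) :
    2 ^ n ∣ finrank k V := by
  let φ := Fintype.linearCombination k x
  let B' : (Fin m → k) →ₗ[k] (Fin m → k) →ₗ[k] k := Matrix.toLinearMap₂' k (Matrix.of B)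
  have b0 : ∀ v w, B' v w = ∑ i, ∑ j, v i * w j * B i j := fun v w => by
    simp [B', Matrix.toLinearMap₂'_apply, mul_assoc]
  have b1 : ∀ v w u, φ v (φ w u) + φ w (φ v u) = B' v w • u := fun v w u => by
    simp only [φ, Fintype.linearCombination_apply, LinearMap.sum_apply, LinearMap.smul_apply, map_sum,
      map_smul, b0, Finset.sum_smul, Finset.smul_sum]
    rw [Finset.sum_comm, ← Finset.sum_add_distrib]
    refine Finset.sum_congr rfl fun i _ => ?_
    rw [← Finset.sum_add_distrib]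
    refine Finset.sum_congr rfl fun j _ => ?_
    linear_combination (norm := module) (v i * w j) • h1 i j u
  simpa using clifford_dvd φ B' (fun v w => by
      rw [b0, b0, Finset.sum_comm]
      exact Finset.sum_congr rfl fun i _ => Finset.sum_congr rfl fun j _ => by rw [hs]; ring)
    n ⊤ ⊤ (fun v _ w _ => b1 v w) (fun v _ => by
      induction (Pi.basisFun k (Fin m)).mem_span v using Submodule.span_induction with
      | mem v hv =>
        obtain ⟨i, rfl⟩ := hv
        simpa [φ, Fintype.linearCombination_apply, Pi.single_apply] using h2 i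
      | zero => exact ⟨0, by simp⟩
      | add v w _ _ hv hw =>
        obtain ⟨q, hq⟩ := hv trivial
        obtain ⟨q', hq'⟩ := hw trivial
        refine ⟨q + q' + B' v w, fun u => ?_⟩
        simp only [map_add, LinearMap.add_apply, hq, hq']
        linear_combination (norm := module) b1 v w u
      | smul t v _ hv =>
        obtain ⟨q, hq⟩ := hv trivial
        exact ⟨t * t * q, fun u => by simp [hq, smul_smul, mul_assoc]⟩)
    (fun _ _ _ _ => trivial) (fun v _ hv => by
      by_contra! hc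
      exact hv (h3 v fun j => by simpa [b0, Pi.single_apply] using hc (Pi.single j 1) trivial))
    (by simpa using hn)

theorem nondeg_const {m : ℕ} {α β : k} (hβ : β ≠ 0) (h : m * α + β ≠ 0) (t : Fin m → k)
    (ht : ∀ j, ∑ i, t i * (α + if i = j then β else 0) = 0) : t = 0 := by
  simp only [mul_add, Finset.sum_add_distrib, mul_ite, mul_zero, Finset.sum_ite_eq', Finset.mem_univ,
    if_true, ← Finset.sum_mul] at ht
  have h1 : (∑ i, t i) * (m * α + β) = 0 := by
    have := Finset.sum_eq_zero (s := Finset.univ) fun j _ => ht j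
    simp only [Finset.sum_add_distrib, ← Finset.sum_mul, Finset.sum_const, Finset.card_univ,
      Fintype.card_fin, nsmul_eq_mul] at this
    linear_combination this
  funext j
  simpa [(mul_eq_zero.1 h1).resolve_right h, hβ] using ht j

/-- Quadratic action of a `3`-cycle. -/
def Quad (x : End k V) : Prop := ∀ v, x (x v) + x v + v = 0

theorem Rp.quad_all (R : Rp (GS τ S) ρ) (C : Cov τ X ζ) (h5 : 5 ≤ S.card) (h : Tri S a b c)
    (hq : Quad (ρ (X a b c))) (h' : Tri S d e f) : Quad (ρ (X d e f)) := fun v => by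
  obtain ⟨g, hg, rfl, rfl, rfl⟩ := C.exists_tri_map h5 h h'
  rw [← R.app_inv hg v, R.conj C h hg, R.conj C h hg, ← map_add, ← map_add, hq, map_zero]

theorem Rp.zeta (R : Rp (GS τ S) ρ) (C : Cov τ X ζ) [IsAlgClosed k] [FiniteDimensional k V]
    (hI : Irr (GS τ S) ρ) : (∀ v, ρ ζ v = v) ∨ ∀ v, ρ ζ v = -v := by
  obtain ⟨t, ht⟩ := Rp.schur hI (ρ ζ) fun g hg v => by
    rw [← R.app hg (C.zmem S), C.zc, R.app (C.zmem S) hg]
  rcases subsingleton_or_nontrivial V with h | h
  · exact Or.inl fun v => Subsingleton.elim _ _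
  obtain ⟨v, hv⟩ := exists_ne (0 : V)
  have := R.app (C.zmem S) (C.zmem S) v
  rw [C.zsq, R.one, ht, ht, smul_smul, End.one_apply, eq_comm, ← sub_eq_zero, ← one_smul k v,
    smul_smul, mul_one, one_smul] at this
  nth_rewrite 2 [← one_smul k v] at this
  rw [← sub_smul, smul_eq_zero, sub_eq_zero, mul_self_eq_one_iff] at this
  rcases this.resolve_right hv with h | h <;> simp [ht, h]

theorem Rp.sq_rel (R : Rp (GS τ S) ρ) (C : Cov τ X ζ) (h : Tri S a b c) (h' : Tri S a b d) (hcd : c ≠ d)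
    (v : V) : ρ (X a b c) (ρ (X a b d) (ρ (X a b c) (ρ (X a b d) v))) = ρ ζ v := by
  rw [← C.sq h.ab h.ac h.bc h'.ac h'.bc hcd, sq, R.app (mul_mem (C.mem h) (C.mem h'))
    (mul_mem (C.mem h) (C.mem h')), R.app (C.mem h) (C.mem h'), R.app (C.mem h) (C.mem h')]

theorem Rp.quad_rel0 (R : Rp (GS τ S) ρ) (C : Cov τ X ζ) (h : Tri S a b c) (h' : Tri S a b d)
    (hcd : c ≠ d) (q1 : Quad (ρ (X a b c))) (q2 : Quad (ρ (X a b d))) {ε : k} (hε : ∀ v, ρ ζ v = ε • v)
    (v : V) : ρ (X a b c) (ρ (X a b d) v) =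
      ε • (ρ (X a b d) (ρ (X a b c) v) + ρ (X a b c) v + ρ (X a b d) v + v) := by
  have h1 := R.sq_rel C h h' hcd (ρ (X a b d) (ρ (X a b d) (ρ (X a b c) (ρ (X a b c) v))))
  rw [R.cube C h', R.cube C h, hε] at h1
  rw [h1, eq_neg_of_add_eq_zero_left ((add_assoc _ _ _).symm.trans (q2 _)),
    eq_neg_of_add_eq_zero_left ((add_assoc _ _ _).symm.trans (q1 _))]
  simp only [map_add, map_neg]
  module

theorem Rp.quad_triv (R : Rp (GS τ S) ρ) (C : Cov τ X ζ) (h5 : 5 ≤ S.card) (h : Tri S a b c)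
    (hq : Quad (ρ (X a b c))) (h2 : (2 : k) ≠ 0) (hz : ∀ v, ρ ζ v = v) : ρ (X a b c) = 1 := by
  have key : ∀ c d, Tri S a b c → Tri S a b d → c ≠ d → ∀ v, ρ (X a b c) v + ρ (X a b d) v + v = 0 :=
    fun c' d t t' hcd v => smul_right_injective V h2 (by
      have q1 := R.quad_all C h5 h hq t
      have q2 := R.quad_all C h5 h hq t'
      linear_combination (norm := module)
        -R.quad_rel0 C t t' hcd q1 q2 (ε := 1) (by simpa using hz) v -
        R.quad_rel0 C t' t hcd.symm q2 q1 (ε := 1) (by simpa using hz) v)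
  obtain ⟨l, m, n, t⟩ := exists_tri_sdiff (S := S) (A := {a, b})
    (by have := Finset.card_le_two (a := a) (b := b); omega)
  obtain ⟨hl, hm, hn⟩ := (⟨t.ma, t.mb, t.mc⟩ : _ ∧ _ ∧ _)
  simp only [Finset.mem_sdiff, Finset.mem_insert, Finset.mem_singleton, not_or] at hl hm hn
  have t1 : Tri S a b l := ⟨h.ma, h.mb, hl.1, h.ab, Ne.symm hl.2.1, Ne.symm hl.2.2⟩
  have t2 : Tri S a b m := ⟨h.ma, h.mb, hm.1, h.ab, Ne.symm hm.2.1, Ne.symm hm.2.2⟩
  have t3 : Tri S a b n := ⟨h.ma, h.mb, hn.1, h.ab, Ne.symm hn.2.1, Ne.symm hn.2.2⟩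
  have q := R.quad_all C h5 h hq t1
  have e0 : ∀ v, ρ (X a b l) v + ρ (X a b l) v + v = 0 := fun v => by
    linear_combination (norm := module) key l m t1 t2 t.ab v - key m n t2 t3 t.bc v + key l n t1 t3 t.ac v
  by_contra h0
  refine R.ne_one C h5 t1 ⟨_, C.mem h, h0⟩ (LinearMap.ext fun v => ?_)
  rw [End.one_apply]
  linear_combination (norm := module) e0 v - q v - q v + e0 (ρ (X a b l) v)

theorem Rp.quad_rel (R : Rp (GS τ S) ρ) (C : Cov τ X ζ) [IsAlgClosed k] [FiniteDimensional k V]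
    (h5 : 5 ≤ S.card) (hI : Irr (GS τ S) ρ) (hn : ∃ g ∈ GS τ S, ρ g ≠ 1) (h : Tri S a b c)
    (h' : Tri S a b d) (hq : Quad (ρ (X a b c))) (v : V) :
    ρ (X a b c) (ρ (X a b d) v) + ρ (X a b d) (ρ (X a b c) v) + ρ (X a b c) v + ρ (X a b d) v + v +
      (if c = d then 1 else 0 : k) • v = 0 := by
  split_ifs with hcd
  · subst hcd
    linear_combination (norm := module) hq v + hq v
  have q2 := R.quad_all C h5 h hq h'
  have hz : ∀ v, ρ ζ v = (-1 : k) • v := by
    rcases R.zeta C hI with hz | hz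
    · have h2 : (2 : k) = 0 := by
        by_contra h2
        exact R.ne_one C h5 h hn (R.quad_triv C h5 h hq h2 hz)
      intro v
      linear_combination (norm := module) hz v + h2 • v
    · simpa using hz
  linear_combination (norm := module) R.quad_rel0 C h h' hcd hq q2 hz v

omit [Fintype Ω] in
theorem exists_fam (h : Tri S a b c) {m : ℕ} (hm : m + 2 ≤ S.card) :
    ∃ p : Fin m → Ω, Function.Injective p ∧ ∀ i, Tri S a b (p i) := by
  obtain ⟨p, hp⟩ := Function.Embedding.exists_of_card_le_finset (α := Fin m) (s := S \ {a, b})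
    (by have := Finset.le_card_sdiff {a, b} S; have := Finset.card_le_two (a := a) (b := b); simp; omega)
  refine ⟨p, p.injective, fun i => ?_⟩
  have := hp ⟨i, rfl⟩
  simp only [Finset.coe_sdiff, Finset.coe_insert, Finset.coe_singleton, Set.mem_sdiff, SetLike.mem_coe,
    Set.mem_insert_iff, Set.mem_singleton_iff, not_or] at this
  exact ⟨h.ma, h.mb, this.1, h.ab, Ne.symm this.2.1, Ne.symm this.2.2⟩

theorem Rp.cliffA (R : Rp (GS τ S) ρ) (C : Cov τ X ζ) [IsAlgClosed k] [FiniteDimensional k V]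
    (h5 : 5 ≤ S.card) (hI : Irr (GS τ S) ρ) (hn : ∃ g ∈ GS τ S, ρ g ≠ 1) (h : Tri S a b c)
    (hq : Quad (ρ (X a b c))) (n : ℕ) (hm : 2 * n + 2 ≤ S.card) (h2 : (2 : k) ≠ 0)
    (h3 : (n + 1 : k) ≠ 0) : 2 ^ n ∣ finrank k V := by
  obtain ⟨p, hp, t⟩ := exists_fam h hm
  have q := fun i => R.quad_all C h5 h hq (t i)
  refine cliff_gens (fun i => (2 : k) • ρ (X a b (p i)) + 1)
    (fun i j => -2 + if i = j then -(2 * 2) else 0) (fun i j => by simp only [eq_comm])
    (fun i j u => ?_) (fun i => ⟨-3, fun u => ?_⟩) (nondeg_const (by simpa using h2) ?_) le_rfl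
  · have := R.quad_rel C h5 hI hn (t i) (t j) (q i) u
    simp only [hp.eq_iff] at this
    simp only [LinearMap.add_apply, LinearMap.smul_apply, End.one_apply, map_add, map_smul]
    split_ifs at this ⊢ <;> linear_combination (norm := module) (4 : k) • this
  · simp only [LinearMap.add_apply, LinearMap.smul_apply, End.one_apply, map_add, map_smul]
    linear_combination (norm := module) (4 : k) • q i u
  · convert neg_ne_zero.2 (mul_ne_zero (mul_ne_zero h2 h2) h3) using 1
    push_cast; ring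

theorem Rp.cliffB (R : Rp (GS τ S) ρ) (C : Cov τ X ζ) [IsAlgClosed k] [FiniteDimensional k V]
    (h5 : 5 ≤ S.card) (hI : Irr (GS τ S) ρ) (hn : ∃ g ∈ GS τ S, ρ g ≠ 1) (h : Tri S a b c)
    (hq : Quad (ρ (X a b c))) (n : ℕ) (hm : 2 * n + 3 ≤ S.card)
    (h3 : (2 * n + 1 : k) ≠ 0) : 2 ^ n ∣ finrank k V := by
  obtain ⟨p, hp, t⟩ := exists_fam h (m := 2 * n + 1) hm
  have q := fun i => R.quad_all C h5 h hq (t i)
  have r0 : ∀ (i : Fin (2 * n)) u, _ := fun i u => by
    simpa only [hp.eq_iff, if_neg (Fin.succ_ne_zero i)] using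
      R.quad_rel C h5 hI hn (t i.succ) (t 0) (q _) u
  refine cliff_gens (fun i : Fin (2 * n) => ρ (X a b (p i.succ)) - ρ (X a b (p 0)))
    (fun i j => -1 + if i = j then -1 else 0) (fun i j => by simp only [eq_comm])
    (fun i j u => ?_) (fun i => ⟨-1, fun u => ?_⟩) (nondeg_const (by simp) ?_) le_rfl
  · have := R.quad_rel C h5 hI hn (t i.succ) (t j.succ) (q _) u
    simp only [hp.eq_iff, Fin.succ_inj] at this
    simp only [LinearMap.sub_apply, map_sub]
    split_ifs at this ⊢ <;>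
      linear_combination (norm := module) this - r0 i u - r0 j u + q 0 u + q 0 u
  · simp only [LinearMap.sub_apply, map_sub]
    linear_combination (norm := module) q i.succ u + q 0 u - r0 i u
  · convert neg_ne_zero.2 h3 using 1
    push_cast; ring

theorem q8_rel {x y z : Γ} (hx : x ^ 3 = 1) (hy : y ^ 3 = 1) (h : (x * y) ^ 2 = z) (hz : z * z = 1)
    (hc : ∀ g, g * z = z * g) : y * x * (y * x) = z ∧ x * y * (y * x) = z * (y * x * (x * y)) := by
  have hx' : x * x = x⁻¹ := eq_inv_of_mul_eq_one_left (by simpa [pow_succ] using hx)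
  have hy' : y * y = y⁻¹ := eq_inv_of_mul_eq_one_left (by simpa [pow_succ] using hy)
  rw [sq] at h
  have h1 : y * x * (y * x) = z := by
    calc _ = x⁻¹ * (x * y * (x * y)) * x := by simp [mul_assoc]
      _ = z := by rw [h, hc]; simp
  have h2 : y⁻¹ = z * (x * y * x) := inv_eq_of_mul_eq_one_left (by rw [← hz, ← h]; simp [mul_assoc])
  have h3 : x * y * (y * x) = z * (x * (x * y) * x⁻¹) := by
    calc _ = x * (y * y) * x := by simp only [mul_assoc]
      _ = x * z * (x * y * (x * x)) := by rw [hy', h2]; simp only [mul_assoc]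
      _ = _ := by rw [hc x, hx']; simp only [mul_assoc]
  have h4 : x * y * (y * x) * (x * y * (y * x)) = z := by
    calc _ = z * (x * (x * y) * x⁻¹ * z) * (x * (x * y) * x⁻¹) := by rw [h3]; simp only [mul_assoc]
      _ = z * z * (x * (x * y * (x * y)) * x⁻¹) := by rw [hc]; simp [mul_assoc]
      _ = z := by rw [hz, h, hc]; simp
  refine ⟨h1, ?_⟩
  calc _ = x * y * (y * x) * (x * y * (x * y) * z) := by rw [h, hz, mul_one]
    _ = x * y * (y * x) * (x * y * (y * x * (y * x)) * (x * y)) := by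
      rw [h1, mul_assoc (x * y) z, ← hc]; simp only [mul_assoc]
    _ = _ := by rw [← h4]; simp only [mul_assoc]

/-- Two commuting quaternion groups. -/
theorem Rp.four_dvd (R : Rp (GS τ S) ρ) (C : Cov τ X ζ) [IsAlgClosed k] [FiniteDimensional k V]
    (h8 : 8 ≤ S.card) (h2 : (2 : k) ≠ 0) (hz : ∀ v, ρ ζ v = -v) : 4 ∣ finrank k V := by
  have key : ∀ T ⊆ S, 4 ≤ T.card → ∃ A ⊆ T, A.card ≤ 4 ∧ ∃ i ∈ GS τ A, ∃ j ∈ GS τ A,
      (∀ g ∈ GS τ (S \ A), g * i = i * g ∧ g * j = j * g) ∧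
      i * i = ζ ∧ j * j = ζ ∧ i * j = ζ * (j * i) := fun T hT h4 => by
    obtain ⟨a, b, c, h⟩ := exists_tri (S := T) (by omega)
    obtain ⟨d, hd, hd'⟩ := exists_notMem_of_card (S := T) (T := {a, b, c})
      (lt_of_le_of_lt Finset.card_le_three (by omega))
    simp only [Finset.mem_insert, Finset.mem_singleton, not_or] at hd'
    have t1 : Tri {a, b, c, d} a b c := ⟨by simp, by simp, by simp, h.ab, h.ac, h.bc⟩
    have t2 : Tri {a, b, c, d} a b d := ⟨by simp, by simp, by simp, h.ab, Ne.symm hd'.1, Ne.symm hd'.2.1⟩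
    have hA : {a, b, c, d} ⊆ T := by simp [Finset.insert_subset_iff, h.ma, h.mb, h.mc, hd]
    have h1 := C.sq h.ab h.ac h.bc t2.ac t2.bc (Ne.symm hd'.2.2)
    have h3 := q8_rel (C.cube h.ab h.ac h.bc) (C.cube h.ab t2.ac t2.bc) h1 C.zsq C.zc
    refine ⟨_, hA, Finset.card_le_four, _, mul_mem (C.mem t1) (C.mem t2), _,
      mul_mem (C.mem t2) (C.mem t1), fun g hg => ?_, by rw [← h1, sq], h3.1, h3.2⟩
    have c1 := C.comm (t1.mono (hA.trans hT)) (GS_mono τ (Finset.sdiff_subset_sdiff le_rfl (by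
      simp [Finset.insert_subset_iff])) hg)
    have c2 := C.comm (t2.mono (hA.trans hT)) (GS_mono τ (Finset.sdiff_subset_sdiff le_rfl (by
      simp [Finset.insert_subset_iff])) hg)
    exact ⟨(Commute.mul_right c1 c2).eq, (Commute.mul_right c2 c1).eq⟩
  obtain ⟨A, hA, hA4, i, hi, j, hj, hc, i1, j1, ij⟩ := key S le_rfl (by omega)
  obtain ⟨A', hA', -, i', hi', j', hj', -, i2, j2, ij'⟩ := key (S \ A) Finset.sdiff_subset
    (by have := Finset.le_card_sdiff A S; omega)
  replace hi' := GS_mono τ hA' hi'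
  replace hj' := GS_mono τ hA' hj'
  obtain ⟨c1, c2⟩ := hc i' hi'
  obtain ⟨c3, c4⟩ := hc j' hj'
  replace hi' := GS_mono τ Finset.sdiff_subset hi'
  replace hj' := GS_mono τ Finset.sdiff_subset hj'
  replace hi := GS_mono τ hA hi
  replace hj := GS_mono τ hA hj
  have s1 : ∀ g ∈ GS τ S, g * g = ζ → ∀ v, ρ g (ρ g v) = -v := fun g hg h v => by
    rw [← R.app hg hg, h, hz]
  have s2 : ∀ g ∈ GS τ S, ∀ h ∈ GS τ S, g * h = ζ * (h * g) → ∀ v, ρ h (ρ g v) = -ρ g (ρ h v) :=
    fun g hg h hh e v => by rw [← R.app hg hh, e, R.app (C.zmem S) (mul_mem hh hg), hz, R.app hh hg, neg_neg]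
  have s3 : ∀ g ∈ GS τ S, ∀ h ∈ GS τ S, h * g = g * h → ∀ v, ρ h (ρ g v) = ρ g (ρ h v) :=
    fun g hg h hh e v => by rw [← R.app hg hh, ← e, R.app hh hg]
  have a1 := s1 i hi i1
  have a2 := s1 j hj j1
  have a3 := s1 i' hi' i2
  have a4 := s1 j' hj' j2
  have a5 := s2 i hi j hj ij
  have a6 := s2 i' hi' j' hj' ij'
  have a7 := s3 i hi i' hi' c1
  have a8 := s3 j hj i' hi' c2
  have a9 := s3 i hi j' hj' c3
  have a10 := s3 j hj j' hj' c4
  refine cliff_gens (n := 2) ![ρ i, ρ j, ρ i * ρ j * ρ i', ρ i * ρ j * ρ j']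
    (fun s t => if s = t then ![-2, -2, 2, 2] s else 0) (fun s t => ?_) (fun s t u => ?_)
    (fun s => ⟨![-1, -1, 1, 1] s, fun u => ?_⟩) (fun t ht => funext fun s => ?_) le_rfl
  · split_ifs with h1 h3 h3 <;> simp_all
  · fin_cases s <;> fin_cases t <;> simp [a1, a2, a3, a4, a5, a6, a7, a8, a9, a10, two_smul]
  · fin_cases s <;> simp [a1, a2, a3, a4, a5, a6, a7, a8, a9, a10]
  · have := ht s
    fin_cases s <;> simpa [h2] using this

end Cfsg.Lib.Alt
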