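import Cfsg.Agent.Lib.Alt.DegC

/-!
# Degrees of projective representations of alternating groups: the main bound
-/

set_option autoImplicit false

namespace Cfsg.Lib.Alt

open Subgroup Equiv Equiv.Perm Cfsg.Lib.Pres Module
open scoped commutatorElement

variable {Ω : Type} [Fintype Ω] [DecidableEq Ω] {Γ : Type} [Group Γ]
variable {k V : Type} [Field k] [AddCommGroup V] [Module k V]
variable {τ : Γ →* Perm Ω} {X : Ω → Ω → Ω → Γ} {ζ : Γ} {S T : Finset Ω} {a b c d e f : Ω}
  {ρ : Γ → End k V} {g h : Γ}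

theorem LB_two {G : Subgroup Γ} (hp : G ≤ ⁅G, G⁆) : LB k G 2 := by
  intro V _ _ _ ρ R ⟨g, hg, hn⟩
  by_contra! hc
  obtain ⟨v, hv⟩ := finrank_le_one_iff.1 (show finrank k V ≤ 1 by omega)
  have h1 : ∀ x y : End k V, ∀ w, x (y w) = y (x w) := fun x y w => by
    obtain ⟨s, hs⟩ := hv (x v)
    obtain ⟨t, ht⟩ := hv (y v)
    obtain ⟨u, rfl⟩ := hv w
    simp only [map_smul, ← hs, ← ht, smul_smul]
    ring_nf
  have := ((hp.trans (commutator_le.2 fun g hg h hh => ?_) : G ≤ R.stab R.inv_bot Set.univ) hg).2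
  · exact hn (LinearMap.ext fun w => by simpa [sub_eq_zero] using this w trivial)
  refine ⟨mul_mem (mul_mem (mul_mem hg hh) (inv_mem hg)) (inv_mem hh), fun w _ => ?_⟩
  rw [commutatorElement_def, R.app (mul_mem (mul_mem hg hh) (inv_mem hg)) (inv_mem hh),
    R.app (mul_mem hg hh) (inv_mem hg), R.app hg hh, h1 (ρ h), R.app_inv hg, R.app_inv hh]
  simp

theorem exists_omega [IsAlgClosed k] (h3 : (3 : k) ≠ 0) : ∃ ω : k, ω * ω + ω + 1 = 0 ∧ ω ≠ 1 := by
  obtain ⟨t, ht⟩ := IsAlgClosed.exists_root (Polynomial.C (1 : k) * Polynomial.X ^ 2 +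
    Polynomial.C 1 * Polynomial.X + Polynomial.C 1) (by rw [Polynomial.degree_quadratic one_ne_zero]; decide)
  simp only [Polynomial.IsRoot, Polynomial.eval_add, Polynomial.eval_mul, Polynomial.eval_C,
    Polynomial.eval_pow, Polynomial.eval_X] at ht
  exact ⟨t, by linear_combination ht, fun h => h3 (by rw [h] at ht; linear_combination ht)⟩

/-- Splitting a vector of `[V, x]` into eigenvectors. -/
theorem split_eig {ω : k} (hω : ω * ω + ω + 1 = 0) (h3 : (3 : k) ≠ 0) {x : End k V} {w : V}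
    (hw : x (x w) + x w + w = 0) {P : V → Prop} (hP : ∀ u v, P u → P v → P (u + v))
    (h1 : ∀ (s t : k), x (s • x w + t • w) = ω • (s • x w + t • w) → P (s • x w + t • w))
    (h2 : ∀ (s t : k), x (s • x w + t • w) = (ω * ω) • (s • x w + t • w) → P (s • x w + t • w)) :
    P w := by
  have e : x (x w) = -x w - w := by linear_combination (norm := module) hw
  have := hP _ _ (h1 ((3 : k)⁻¹ * (ω * ω - ω)) ((3 : k)⁻¹ * (1 - ω)) (by
      rw [map_add, map_smul, map_smul, e]; match_scalars <;> grind))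
    (h2 (-((3 : k)⁻¹ * (ω * ω - ω))) ((3 : k)⁻¹ * (1 - ω * ω)) (by
      rw [map_add, map_smul, map_smul, e]; match_scalars <;> grind))
  convert this using 1
  match_scalars <;> grind

theorem lb_six [IsAlgClosed k] (C : Cov τ X ζ) (h3 : (3 : k) ≠ 0) (h6 : 6 ≤ S.card) :
    LB k (GS τ S) 4 := by
  intro V _ _ _ ρ R hn
  obtain ⟨ω, hω, hω1⟩ := exists_omega h3
  obtain ⟨a, b, c, t⟩ := exists_tri (S := S) (by omega)
  obtain ⟨d, e, f, t'⟩ := exists_tri (S := S \ {a, b, c}) (by have := card_sdiff3 t; omega)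
  have t2 := t'.mono Finset.sdiff_subset
  obtain ⟨hd, he, hf⟩ := (⟨t'.ma, t'.mb, t'.mc⟩ : _ ∧ _ ∧ _)
  simp only [Finset.mem_sdiff, Finset.mem_insert, Finset.mem_singleton, not_or] at hd he hf
  obtain ⟨n, hn0⟩ := C.lift (swap a e * swap a b * swap a d * swap c f)
    (by simp [t.ab, Ne.symm he.2.1, Ne.symm hd.2.1, Ne.symm hf.2.2.2])
  have hnS : n ∈ GS τ S := ⟨by
      rw [hn0]; simp [t.ab, Ne.symm he.2.1, Ne.symm hd.2.1, Ne.symm hf.2.2.2], fun x hx => by
    have : ∀ y ∈ S, x ≠ y := fun y hy h => hx (by rw [h]; exact hy)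
    rw [hn0]
    simp [swap_apply_of_ne_of_ne, this _ t.ma, this _ t.mb, this _ t.mc, this _ t2.ma, this _ t2.mb,
      this _ t2.mc]⟩
  have n1 : τ n a = d ∧ τ n b = e ∧ τ n c = f ∧ τ n d = b ∧ τ n e = a ∧ τ n f = c := by
    have := t.ab; have := t.ac; have := t.bc; have := t2.ab; have := t2.ac; have := t2.bc
    simp only [hn0, Perm.mul_apply, swap_apply_def]
    grind
  have c1 := R.conj C t hnS
  have c2 := R.conj C t2 hnS
  rw [n1.1, n1.2.1, n1.2.2.1] at c1
  rw [n1.2.2.2.1, n1.2.2.2.2.1, n1.2.2.2.2.2, C.inv t.ab t.ac t.bc] at c2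
  set x := ρ (X a b c) with hx
  set y := ρ (X d e f) with hy
  have cx := R.cube C t
  have cy := R.cube C t2
  have xy := R.comm C t (C.mem t')
  rw [← hx] at cx xy
  rw [← hy] at cy xy
  have step : ∀ v (α β : k), β * β * β = 1 → x v = α • v → y v = β • v →
      x (ρ n v) = (β * β) • ρ n v ∧ y (ρ n v) = α • ρ n v := fun v α β hβ h1 h2 => by
    refine ⟨?_, by rw [c1, h1, map_smul]⟩
    have := congrArg x (c2 v)
    rw [hx, R.app_inv (C.mem t), h2, map_smul, map_smul] at this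
    rw [← one_smul k (x _), ← hβ, mul_smul, ← this]
  obtain ⟨v, hv, α, β, hα, hβ, hα1, h1, h2⟩ : ∃ v, v ≠ 0 ∧ ∃ α β : k, α * α * α = 1 ∧ β * β * β = 1 ∧
      α ≠ 1 ∧ x v = α • v ∧ y v = β • v := by
    by_contra! hc
    have b1 : ∀ α : k, α * α * α = 1 → α ≠ 1 → ∀ v, x v = α • v → v = 0 := fun α hα hα1 v hv => by
      have b2 : ∀ β : k, β * β * β = 1 → ∀ w, x w = α • w → y w = β • w → w = 0 :=
        fun β hβ w h1 h2 => by_contra fun h0 => hc w h0 α β hα hβ hα1 h1 h2
      have b3 : y (y v) + y v + v = 0 := b2 1 (by simp) _ (by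
        simp only [map_add, ← xy, hv, map_smul, smul_add]) (by simp only [map_add, cy, one_smul]; abel)
      refine split_eig hω h3 b3 (P := fun u => u = 0) (fun u v hu hv => by simp [hu, hv])
        (fun s t h => b2 ω (by grind) _ ?_ h) fun s t h => b2 (ω * ω) (by grind) _ ?_ h <;>
      simp only [map_add, map_smul, ← xy, hv] <;> module
    refine R.ne_one C (by omega) t hn (LinearMap.ext fun v => ?_)
    rw [← hx, End.one_apply, ← sub_eq_zero]
    exact split_eig hω h3 (x := x) (by simp [cx]) (P := fun u => u = 0) (fun u v hu hv => by simp [hu, hv])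
      (fun s t h => b1 ω (by grind) hω1 _ h) fun s t h => b1 (ω * ω) (by grind) (by grind) _ h
  have s1 := step v α β hβ h1 h2
  have s2 := step _ _ _ hα s1.1 s1.2
  have s3 := step _ _ _ (by grind) s2.1 s2.2
  have i1 : ∀ w, w ≠ 0 → ρ n w ≠ 0 := fun w hw h => hw (R.inj hnS (h.trans (map_zero _).symm))
  simpa using (indep_of_weights ![x, y] ![v, ρ n v, ρ n (ρ n v), ρ n (ρ n (ρ n v))]
    ![![α, β], ![β * β, α], ![α * α, β * β], ![β * β * (β * β), α * α]]
    (fun j => by fin_cases j; exacts [hv, i1 _ hv, i1 _ (i1 _ hv), i1 _ (i1 _ (i1 _ hv))]) (fun i j hij => by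
      have e0 := congrFun hij 0
      have e1 := congrFun hij 1
      fin_cases i <;> fin_cases j <;> simp at e0 e1 ⊢ <;> grind)
    (fun i j => by fin_cases i <;> fin_cases j <;> simp [h1, h2, s1, s2, s3])).fintype_card_le_finrank

theorem inv_eig (R : Rp (GS τ S) ρ) (C : Cov τ X ζ) (h : Tri S a b c) (α : k) :
    Inv (GS τ (S \ {a, b, c})) ρ ((ρ (X a b c)).eigenspace α) := fun g hg v hv => by
  rw [End.mem_eigenspace_iff] at hv ⊢
  rw [← R.comm C h hg, hv, map_smul]

theorem caseB_ne [IsAlgClosed k] [FiniteDimensional k V] (C : Cov τ X ζ) (R : Rp (GS τ S) ρ)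
    (h3 : (3 : k) ≠ 0) (h8 : 8 ≤ S.card) (hn : ∃ g ∈ GS τ S, ρ g ≠ 1) (hI : Irr (GS τ S) ρ)
    (t : Tri S a b c) (t' : Tri (S \ {a, b, c}) d e f) {v : V}
    (hv : ρ (X d e f) (ρ (X a b c) v - v) ≠ ρ (X a b c) v - v) {D : ℕ}
    (L : LB k (GS τ (S \ {a, b, c})) D) :
    2 * D ≤ finrank k V ∧ (¬ Quad (ρ (X a b c)) → 3 * D ≤ finrank k V) := by
  obtain ⟨ω, hω, hω1⟩ := exists_omega h3
  have t2 := t'.mono Finset.sdiff_subset
  obtain ⟨hd, he, hf⟩ := (⟨t'.ma, t'.mb, t'.mc⟩ : _ ∧ _ ∧ _)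
  simp only [Finset.mem_sdiff, Finset.mem_insert, Finset.mem_singleton, not_or] at hd he hf
  have R' := R.mono (GS_mono τ (Finset.sdiff_subset (s := S) (t := {a, b, c})))
  obtain ⟨n, hnS, n1⟩ := C.exists_map (m := 6) h8 (v := ![a, b, c, d, e, f]) (w := ![b, a, c, d, e, f])
    (by
      have := t.ab; have := t.ac; have := t.bc; have := t2.ab; have := t2.ac; have := t2.bc
      intro i j; fin_cases i <;> fin_cases j <;> simp <;> grind)
    (by
      have := t.ab; have := t.ac; have := t.bc; have := t2.ab; have := t2.ac; have := t2.bc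
      intro i j; fin_cases i <;> fin_cases j <;> simp <;> grind)
    (by intro i; fin_cases i; exacts [t.ma, t.mb, t.mc, t2.ma, t2.mb, t2.mc])
    (by intro i; fin_cases i; exacts [t.mb, t.ma, t.mc, t2.ma, t2.mb, t2.mc])
  have c1 := R.conj C t hnS
  have c2 := R.conj C t2 hnS
  rw [show τ n a = b from n1 0, show τ n b = a from n1 1, show τ n c = c from n1 2,
    C.inv t.ab t.ac t.bc] at c1
  rw [show τ n d = d from n1 3, show τ n e = e from n1 4, show τ n f = f from n1 5] at c2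
  have sw : ∀ α : k, α * α * α = 1 → (∃ u ∈ (ρ (X a b c)).eigenspace α, ρ (X d e f) u ≠ u) →
      ∃ u ∈ (ρ (X a b c)).eigenspace (α * α), ρ (X d e f) u ≠ u := fun α hα ⟨u, hu, hu'⟩ => by
    refine ⟨ρ n u, ?_, fun h => hu' (R.inj hnS (by rw [← c2, h]))⟩
    rw [End.mem_eigenspace_iff] at hu ⊢
    have := congrArg (ρ (X a b c)) (c1 u)
    rw [R.app_inv (C.mem t), hu, map_smul, map_smul] at this
    rw [← one_smul k (ρ (X a b c) _), ← hα, mul_smul, ← this]
  have b1 : ∃ u ∈ (ρ (X a b c)).eigenspace ω, ρ (X d e f) u ≠ u := by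
    by_contra! hc
    refine hv (split_eig hω h3 (x := ρ (X a b c)) (by simp [R.cube C t]) (P := fun u => ρ (X d e f) u = u)
      (fun u v hu hv => by rw [map_add, hu, hv]) (fun s t h => hc _ (End.mem_eigenspace_iff.2 h))
      fun s t h => by_contra fun h0 => ?_)
    obtain ⟨u, hu, hu'⟩ := sw (ω * ω) (by grind) ⟨_, End.mem_eigenspace_iff.2 h, h0⟩
    exact hu' (hc u (by rwa [show ω * ω * (ω * ω) = ω by grind] at hu))
  have b2 := L.sub R' (inv_eig R C t ω) ⟨_, C.mem t', b1⟩
  have b3 := L.sub R' (inv_eig R C t (ω * ω)) ⟨_, C.mem t', sw ω (by grind) b1⟩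
  have b4 : finrank k ((ρ (X a b c)).eigenspace ω) + finrank k ((ρ (X a b c)).eigenspace (ω * ω)) +
      finrank k ((ρ (X a b c)).eigenspace 1) ≤ finrank k V := by
    have hi := (ρ (X a b c)).eigenspaces_iSupIndep
    rw [← Submodule.finrank_sup_add_finrank_inf_eq, (hi.pairwiseDisjoint (show ω ≠ ω * ω by grind)).eq_bot,
      finrank_bot, add_zero, ← Submodule.finrank_sup_add_finrank_inf_eq,
      ((hi 1).mono_right (sup_le (le_biSup _ hω1) (le_biSup _ (show ω * ω ≠ 1 by grind)))).symm.eq_bot,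
      finrank_bot, add_zero]
    exact Submodule.finrank_le _
  refine ⟨by omega, fun hq => ?_⟩
  suffices h : D ≤ finrank k ((ρ (X a b c)).eigenspace 1) by omega
  refine L.sub R' (inv_eig R C t 1) ?_
  by_contra! hc
  obtain ⟨w, hw⟩ := not_forall.1 hq
  refine hw (R.eq_zero_of_fix hI hn fun g hg => R.fix_of_gens C (by omega) t.ma t.mb t.ab
    (fun i ti => ?_) hg)
  obtain ⟨p, q, r, s⟩ := exists_tri_sdiff (S := S) (A := {a, b, c, i})
    (by have := Finset.card_le_four (a := a) (b := b) (c := c) (d := i); omega)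
  obtain ⟨hp, hq, hr⟩ := (⟨s.ma, s.mb, s.mc⟩ : _ ∧ _ ∧ _)
  simp only [Finset.mem_sdiff, Finset.mem_insert, Finset.mem_singleton, not_or] at hp hq hr
  have s2 := s.mono Finset.sdiff_subset
  have ek : ∀ x : End k V, x.eigenspace 1 = LinearMap.ker (x - 1) := fun x => by
    rw [End.eigenspace_def]; simp
  have e1 : (ρ (X a b c)).eigenspace 1 = (ρ (X p q r)).eigenspace 1 :=
    Submodule.eq_of_le_of_finrank_le (fun u hu => End.mem_eigenspace_iff.2 (by
      rw [one_smul]
      exact hc _ (C.mem (s2.sdiff (by simp [hp]) (by simp [hq]) (by simp [hr]))) u hu)) (by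
      have := R.finrank_range C (by omega) t s2
      have := LinearMap.finrank_range_add_finrank_ker (ρ (X a b c) - 1)
      have := LinearMap.finrank_range_add_finrank_ker (ρ (X p q r) - 1)
      rw [ek, ek]; omega)
  have R2 := R.mono (GS_mono τ (Finset.sdiff_subset (s := S) (t := {p, q, r})))
  simpa [sub_eq_zero] using R2.triv_of_tri C (by have := card_sdiff3 s2; omega)
    (t.sdiff (by simp; grind) (by simp; grind) (by simp; grind)) R2.inv_bot (inv_eig R C s2 1)
    (fun u hu => by simpa [sub_eq_zero] using End.mem_eigenspace_iff.1 (e1.ge hu))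
    (C.mem (ti.sdiff (by simp; grind) (by simp; grind) (by simp; grind))) _
    (e1.le (End.mem_eigenspace_iff.2 (by
      simp only [map_add, R.cube C t, one_smul]; abel :
        ρ (X a b c) (ρ (X a b c) (ρ (X a b c) w) + ρ (X a b c) w + w) = _)))

theorem dim_three [FiniteDimensional k V] (N : End k V) :
    2 * finrank k ↥(LinearMap.range N ⊓ LinearMap.ker N) + finrank k (LinearMap.range (N * N)) ≤
      finrank k V := by
  have b1 := LinearMap.finrank_range_add_finrank_ker N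
  have b2 := LinearMap.finrank_range_add_finrank_ker (N.domRestrict (LinearMap.range N))
  have b3 := Submodule.finrank_mono (inf_le_right : LinearMap.range N ⊓ LinearMap.ker N ≤ _)
  rw [LinearMap.ker_domRestrict, ← Submodule.finrank_map_subtype_eq (LinearMap.range N)
    (Submodule.comap _ _), Submodule.map_comap_subtype, LinearMap.range_domRestrict,
    ← LinearMap.range_comp, ← End.mul_eq_comp] at b2
  omega

theorem sq_le_three (C : Cov τ X ζ) (R : Rp (GS τ S) ρ) (h3 : (3 : k) = 0) (t : Tri S a b c) :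
    LinearMap.range ((ρ (X a b c) - 1) * (ρ (X a b c) - 1)) ≤
      LinearMap.range (ρ (X a b c) - 1) ⊓ LinearMap.ker (ρ (X a b c) - 1) := by
  rintro _ ⟨v, rfl⟩
  refine ⟨⟨_, rfl⟩, ?_⟩
  simp only [SetLike.mem_coe, LinearMap.mem_ker, End.mul_apply, LinearMap.sub_apply, End.one_apply,
    map_sub, R.cube C t]
  linear_combination (norm := module) h3 • (ρ (X a b c) v - ρ (X a b c) (ρ (X a b c) v))

theorem sq_pos_three [FiniteDimensional k V] (h3 : (3 : k) = 0) {x : End k V} (hq : ¬ Quad x) :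
    1 ≤ finrank k (LinearMap.range ((x - 1) * (x - 1))) := by
  by_contra h
  refine hq fun v => ?_
  have : ((x - 1) * (x - 1)) v = 0 := by
    rw [LinearMap.range_eq_bot.1 (Submodule.finrank_eq_zero.1 (Nat.lt_one_iff.1 (not_le.1 h)))]; rfl
  simp only [End.mul_apply, LinearMap.sub_apply, End.one_apply, map_sub] at this
  linear_combination (norm := module) this + h3 • x v

theorem three_le [FiniteDimensional k V] (C : Cov τ X ζ) (R : Rp (GS τ S) ρ) (h3 : (3 : k) = 0)
    (t : Tri S a b c) (hq : ¬ Quad (ρ (X a b c))) : 3 ≤ finrank k V := by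
  have := dim_three (ρ (X a b c) - 1)
  have := Submodule.finrank_mono (sq_le_three C R h3 t)
  have := sq_pos_three h3 hq
  omega

theorem caseB_eq [FiniteDimensional k V] (C : Cov τ X ζ) (R : Rp (GS τ S) ρ)
    (h3 : (3 : k) = 0) (h8 : 8 ≤ S.card) (t : Tri S a b c) (t' : Tri (S \ {a, b, c}) d e f) {v : V}
    (hv : ρ (X d e f) (ρ (X a b c) v - v) ≠ ρ (X a b c) v - v) {D : ℕ}
    (L : ∀ (V' : Type) [AddCommGroup V'] [Module k V'] [FiniteDimensional k V'] (ρ' : Γ → End k V'),
      Rp (GS τ (S \ {a, b, c})) ρ' → (∃ g ∈ GS τ (S \ {a, b, c}), ρ' g ≠ 1) →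
      (∀ g ∈ GS τ (S \ {a, b, c}), ρ g = 1 → ρ' g = 1) → D ≤ finrank k V') :
    2 * D ≤ finrank k V ∧ (¬ Quad (ρ (X a b c)) → 3 * D ≤ finrank k V ∨ 2 * D + 3 ≤ finrank k V) := by
  have R' := R.mono (GS_mono τ (Finset.sdiff_subset (s := S) (t := {a, b, c})))
  have hp := C.perf (S := S \ {a, b, c}) (by have := card_sdiff3 t; omega)
  have b0 := dim_three (ρ (X a b c) - 1)
  have b1 := sq_le_three C R h3 t
  have b2 := Submodule.finrank_mono b1
  have b3 := sq_pos_three h3 (x := ρ (X a b c))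
  have cm : ∀ g ∈ GS τ (S \ {a, b, c}), ∀ v, ρ g ((ρ (X a b c) - 1) v) = (ρ (X a b c) - 1) (ρ g v) :=
    fun g hg v => by simp [R.comm C t hg]
  change ρ (X d e f) ((ρ (X a b c) - 1) v) ≠ (ρ (X a b c) - 1) v at hv
  set N := ρ (X a b c) - 1
  have i1 : Inv (GS τ (S \ {a, b, c})) ρ (LinearMap.range N) := by
    rintro g hg _ ⟨v, rfl⟩; exact ⟨_, (cm g hg v).symm⟩
  have i2 : Inv (GS τ (S \ {a, b, c})) ρ (LinearMap.range N ⊓ LinearMap.ker N) :=
    fun g hg v hv => ⟨i1 g hg v hv.1, by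
      rw [SetLike.mem_coe, LinearMap.mem_ker, ← cm g hg, show N v = 0 from hv.2, map_zero]⟩
  have i3 : Inv (GS τ (S \ {a, b, c})) ρ (LinearMap.range (N * N)) := by
    rintro g hg _ ⟨v, rfl⟩; exact ⟨ρ g v, by simp [cm g hg]⟩
  have n1 : ∃ g ∈ GS τ (S \ {a, b, c}), ∃ u ∈ LinearMap.range N ⊓ LinearMap.ker N,
      ρ g u - u ∉ (⊥ : Submodule k V) := by
    by_contra! hc
    refine hv (by simpa [sub_eq_zero] using R'.triv_trans hp R'.inv_bot i1 hc (fun g hg u hu =>
      ⟨sub_mem (i1 g hg u hu) hu, by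
        obtain ⟨u, rfl⟩ := hu
        rw [SetLike.mem_coe, LinearMap.mem_ker, map_sub, ← cm g hg]
        exact hc g hg _ (b1 ⟨u, rfl⟩)⟩) (C.mem t') _ ⟨v, rfl⟩)
  have d1 := R'.sect_of L bot_le R'.inv_bot i2 n1
  refine ⟨by omega, fun hq => ?_⟩
  have := b3 hq
  by_cases n2 : ∃ g ∈ GS τ (S \ {a, b, c}), ∃ u ∈ LinearMap.range (N * N),
    ρ g u - u ∉ (⊥ : Submodule k V)
  · have d2 := R'.sect_of L bot_le R'.inv_bot i3 n2
    omega
  · have d2 := R'.sect_of L b1 i3 i2 (by
      by_contra! hc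
      push Not at n2
      obtain ⟨g, hg, u, hu, hu'⟩ := n1
      exact hu' (R'.triv_trans hp R'.inv_bot i2 n2 hc hg u hu))
    omega

theorem le_of_dvd_finrank [FiniteDimensional k V] {G : Subgroup Γ} (hn : ∃ g ∈ G, ρ g ≠ 1) {m : ℕ}
    (h : m ∣ finrank k V) : m ≤ finrank k V := by
  refine Nat.le_of_dvd (Nat.pos_of_ne_zero fun h0 => ?_) h
  obtain ⟨g, -, hg⟩ := hn
  haveI := finrank_zero_iff.1 h0
  exact hg (Subsingleton.elim _ _)

theorem ne_of_three (h3 : (3 : k) = 0) {n : ℕ} (hn : ¬ 3 ∣ n) : (n : k) ≠ 0 := by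
  haveI : CharP k 3 := (CharP.charP_iff_prime_eq_zero Nat.prime_three).2 h3
  rwa [Ne, CharP.cast_eq_zero_iff k 3]

theorem lb_seven [IsAlgClosed k] (C : Cov τ X ζ) (h3 : (3 : k) = 0) (h7 : 7 ≤ S.card) :
    LB k (GS τ S) 3 := lb_of_irr (C.perf (by omega)) fun V _ _ _ ρ R hn hI => by
  obtain ⟨a, b, c, t⟩ := exists_tri (S := S) (by omega)
  by_cases hq : Quad (ρ (X a b c))
  · have := le_of_dvd_finrank hn (R.cliffB C (by omega) hI hn t hq 2 h7
      (by exact_mod_cast ne_of_three h3 (n := 5) (by decide)))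
    omega
  · exact three_le C R h3 t hq

theorem lb_eight [IsAlgClosed k] (C : Cov τ X ζ) (h3 : (3 : k) = 0) (h8 : 8 ≤ S.card) :
    LB k (GS τ S) 6 := lb_of_irr (C.perf (by omega)) fun V _ _ _ ρ R hn hI => by
  by_contra h0
  have := (caseA C R (by omega) hn hI fun a b c d e f t t' v => by_contra fun hv => ?_).1
  · omega
  by_cases hq : Quad (ρ (X a b c))
  · have := le_of_dvd_finrank hn (R.cliffA C (by omega) hI hn t hq 3 h8
      (by exact_mod_cast ne_of_three h3 (n := 2) (by decide))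
      (by exact_mod_cast ne_of_three h3 (n := 4) (by decide)))
    omega
  · have := (caseB_eq C R h3 h8 t t' hv fun V' _ _ _ ρ' R' hn' _ =>
      LB_two (C.perf (by have := card_sdiff3 t; omega)) V' ρ' R' hn').2 hq
    omega

open Classical in
/-- The minimal degree. -/
noncomputable def dd (k : Type) [Field k] (r : ℕ) : ℕ := if (r : k) = 0 then r - 2 else r - 1

theorem dd_le (r : ℕ) : dd k r ≤ r - 1 := by unfold dd; split_ifs <;> omega

theorem le_dd (r : ℕ) : r - 2 ≤ dd k r := by unfold dd; split_ifs <;> omega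

theorem lb_main [IsAlgClosed k] (C : Cov τ X ζ) (r : ℕ) : ∀ S : Finset Ω, S.card = r → 9 ≤ r →
    LB k (GS τ S) (dd k r) := by
  induction r using Nat.strong_induction_on with
  | _ r ih =>
  intro S hS h9
  refine lb_of_irr (C.perf (by omega)) fun V _ _ _ ρ R hn hI => ?_
  by_contra h0
  have := caseA C R (by omega) hn hI fun a b c d e f t t' v => by_contra fun hv => ?_
  · unfold dd at h0
    rw [hS] at this
    split_ifs at h0 with h1
    · omega
    · have := this.2 h1; omega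
  have hT := card_sdiff3 t
  have h1 := dd_le (k := k) r
  by_cases h12 : 12 ≤ r
  · have L := ih (r - 3) (by omega) (S \ {a, b, c}) (by omega) (by omega)
    have h2 := le_dd (k := k) (r - 3)
    by_cases h3 : (3 : k) = 0
    · have := (caseB_eq C R h3 (by omega) t t' hv fun V' _ _ _ ρ' R' hn' _ => L V' ρ' R' hn').1
      omega
    · have := (caseB_ne C R h3 (by omega) hn hI t t' hv L).1
      omega
  have cA := fun hq n hm h2 h3 => le_of_dvd_finrank hn (R.cliffA C (by omega) hI hn t hq n hm h2 h3)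
  have cB := fun hq n hm h3 => le_of_dvd_finrank hn (R.cliffB C (by omega) hI hn t hq n hm h3)
  by_cases h3 : (3 : k) = 0
  swap
  · have b1 := caseB_ne C R h3 (by omega) hn hI t t' hv (lb_six C h3 (by omega))
    by_cases hq : Quad (ρ (X a b c))
    swap
    · have := b1.2 hq; omega
    obtain rfl | rfl | rfl : r = 9 ∨ r = 10 ∨ r = 11 := by omega
    · omega
    · by_cases h10 : ((10 : ℕ) : k) = 0
      · rw [dd, if_pos h10] at h0; omega
      · have := cA hq 4 (by omega) (fun h => h10 (by push_cast; linear_combination 5 * h))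
          fun h => h10 (by push_cast at h ⊢; linear_combination 2 * h)
        omega
    · have := cB hq 4 (by omega) fun h => mul_ne_zero h3 h3 (by push_cast at h; linear_combination h)
      omega
  have h2 : (2 : k) ≠ 0 := by exact_mod_cast ne_of_three h3 (n := 2) (by decide)
  by_cases hq : Quad (ρ (X a b c))
  · by_cases h10 : r = 9
    · have := cA hq 3 (by omega) h2 (by exact_mod_cast ne_of_three h3 (n := 4) (by decide))
      omega
    · have := cA hq 4 (by omega) h2 (by exact_mod_cast ne_of_three h3 (n := 5) (by decide))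
      omega
  obtain rfl | rfl | rfl : r = 9 ∨ r = 10 ∨ r = 11 := by omega
  · rcases R.zeta C hI with hz | hz
    · have := (caseB_eq C R h3 (by omega) t t' hv (D := 3) fun V' _ _ _ ρ' R' hn' hk => by
        refine three_le C R' h3 t' fun hq' => R'.ne_one C (by omega) t' hn'
          (R'.quad_triv C (by omega) t' hq' h2 fun v => ?_)
        rw [hk ζ (C.zmem _) (LinearMap.ext hz)]; rfl).2 hq
      omega
    · have := (caseB_eq C R h3 (by omega) t t' hv fun V' _ _ _ ρ' R' hn' _ =>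
        LB_two (C.perf (by omega)) V' ρ' R' hn').2 hq
      have := R.four_dvd C (by omega) h2 hz
      omega
  · have := (caseB_eq C R h3 (by omega) t t' hv fun V' _ _ _ ρ' R' hn' _ =>
      lb_seven C h3 (by omega) V' ρ' R' hn').2 hq
    omega
  · have := (caseB_eq C R h3 (by omega) t t' hv fun V' _ _ _ ρ' R' hn' _ =>
      lb_eight C h3 (by omega) V' ρ' R' hn').2 hq
    omega

end Cfsg.Lib.Alt
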