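import Cfsg.Agent.Lib.Alt.DegD

/-!
# Alternating sections of linear groups
-/

set_option autoImplicit false

namespace Cfsg.Lib.Alt

open Subgroup Equiv Equiv.Perm Cfsg.Lib.Pres Module
open scoped commutatorElement TensorProduct

variable {H : Type} [Group H] {k V : Type} [Field k] [AddCommGroup V] [Module k V]

theorem exists_weight [IsAlgClosed k] [FiniteDimensional k V] [Nontrivial V] (ρ : H →* End k V)
    {A : Subgroup H} (hA : ∀ a ∈ A, ∀ b ∈ A, a * b = b * a) :
    ∃ v : V, v ≠ 0 ∧ ∃ χ : H → k, ∀ a ∈ A, ρ a v = χ a • v := by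
  obtain ⟨U, hU, hm⟩ := exists_minimal_of_wellFoundedLT
    (fun U : Submodule k V => U ≠ ⊥ ∧ ∀ a ∈ A, ∀ u ∈ U, ρ a u ∈ U) ⟨⊤, top_ne_bot, fun _ _ _ _ => trivial⟩
  obtain ⟨v, hv, hv0⟩ := Submodule.exists_mem_ne_zero_of_ne_bot hU.1
  have : ∀ a, ∃ c : k, a ∈ A → ρ a v = c • v := fun a => by
    by_cases ha : a ∈ A
    swap
    · exact ⟨0, fun h => (ha h).elim⟩
    haveI := Submodule.nontrivial_iff_ne_bot.2 hU.1
    obtain ⟨c, hc⟩ := Module.End.exists_eigenvalue ((ρ a).restrict (hU.2 a ha))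
    obtain ⟨w, hw⟩ := hc.exists_hasEigenvector
    refine ⟨c, fun _ => End.mem_eigenspace_iff.1 (hm (y := U ⊓ (ρ a).eigenspace c)
      ⟨(Submodule.ne_bot_iff _).2 ⟨w, ⟨w.2, End.mem_eigenspace_iff.2
        (congrArg Subtype.val hw.apply_eq_smul)⟩, fun h => hw.2 (Subtype.ext h)⟩,
        fun b hb u hu => ⟨hU.2 b hb u hu.1, End.mem_eigenspace_iff.2 ?_⟩⟩ inf_le_left hv).2⟩
    rw [← End.mul_apply, ← map_mul, hA a ha b hb, map_mul, End.mul_apply,
      End.mem_eigenspace_iff.1 hu.2, map_smul]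
  choose χ hχ using this
  exact ⟨v, hv0, χ, hχ⟩

theorem rp_hom (ρ : H →* End k V) (G : Subgroup H) : Rp G ρ := ⟨map_one ρ, fun g _ h _ => map_mul ρ g h⟩

/-- An abelian normal subgroup is central, or there is a proper subgroup of small index. -/
theorem central_or_index [IsAlgClosed k] [FiniteDimensional k V] [Nontrivial V] [Finite H]
    (ρ : H →* End k V) (hρ : Function.Injective ρ) (hI : Irr ⊤ ρ) {A : Subgroup H} [hA : A.Normal]
    (hc : ∀ a ∈ A, ∀ b ∈ A, a * b = b * a) :
    A ≤ center H ∨ ∃ M : Subgroup H, M ≠ ⊤ ∧ M.index ≤ finrank k V := by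
  obtain ⟨v, hv, χ, hχ⟩ := exists_weight ρ hc
  let M : Subgroup H :=
    { carrier := {h | ∀ a ∈ A, χ (h⁻¹ * a * h) = χ a}
      one_mem' := fun a _ => by simp
      mul_mem' := fun {g h} hg hh a ha => by
        rw [← hg a ha, ← hh _ (hA.conj_mem' a ha g)]; simp [mul_assoc]
      inv_mem' := fun {g} hg a ha => by
        rw [← hg _ (hA.conj_mem' a ha g⁻¹)]; simp [mul_assoc] }
  have h1 : ∀ h, ∀ a ∈ A, ∀ w, ρ (h⁻¹ * a * h) w = χ (h⁻¹ * a * h) • w →
      ρ a (ρ h w) = χ (h⁻¹ * a * h) • ρ h w := fun h a ha w hw => by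
    rw [← map_smul, ← hw, ← End.mul_apply, ← End.mul_apply, ← map_mul, ← map_mul]; simp [mul_assoc]
  by_cases hM : M = ⊤
  · refine Or.inl fun a ha => mem_center_iff.2 fun g => hρ (LinearMap.ext fun w => ?_)
    let W : Submodule k V :=
      { carrier := {w | ∀ a ∈ A, ρ a w = χ a • w}
        zero_mem' := fun a _ => by simp
        add_mem' := fun {v w} hv hw a ha => by rw [map_add, hv a ha, hw a ha, smul_add]
        smul_mem' := fun c v hv a ha => by rw [map_smul, hv a ha, smul_comm] }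
    have hW := (hI W fun h _ w hw a ha => by
      rw [h1 h a ha w (hw _ (hA.conj_mem' a ha h)), (hM.ge trivial : h ∈ M) a ha]).resolve_left
      ((Submodule.ne_bot_iff _).2 ⟨v, hχ, hv⟩)
    have h2 : ∀ w, ρ a w = χ a • w := fun w => (hW.ge trivial : w ∈ W) a ha
    simp [h2]
  refine Or.inr ⟨M, hM, ?_⟩
  haveI := Fintype.ofFinite (H ⧸ M)
  rw [index_eq_card, Nat.card_eq_fintype_card]
  exact (indep_of_weights (fun a : A => ρ a) (fun j : H ⧸ M => ρ j.out v)
    (fun j a => χ (j.out⁻¹ * a * j.out))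
    (fun j h => hv ((rp_hom ρ ⊤).inj trivial (h.trans (map_zero _).symm))) (fun i j hij => by
      rw [← i.out_eq, ← j.out_eq]
      refine QuotientGroup.eq.2 fun a ha => ?_
      have := congrFun hij ⟨_, hA.conj_mem a ha i.out⟩
      simpa [mul_assoc] using this.symm)
    fun a j => h1 _ a a.2 v (hχ _ (hA.conj_mem' _ a.2 _))).fintype_card_le_finrank

/-- A class two normal subgroup with central centre. -/
theorem card_le_sq [IsAlgClosed k] [FiniteDimensional k V] [Nontrivial V] [Finite H]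
    (ρ : H →* End k V) (hρ : Function.Injective ρ) (hI : Irr ⊤ ρ) {E : Subgroup H}
    (h1 : ⁅E, E⁆ ≤ center H) (h2 : ∀ e ∈ E, (∀ g ∈ E, g * e = e * g) → e ∈ center H) :
    Nat.card (E.map (QuotientGroup.mk' (center H))) ≤ finrank k V * finrank k V := by
  have hz : ∀ z, ∃ c : k, z ∈ center H → ρ z = c • 1 := fun z => by
    by_cases hz : z ∈ center H
    · obtain ⟨c, hc⟩ := Rp.schur hI (ρ z) fun g _ v => by
        rw [← End.mul_apply, ← map_mul, mem_center_iff.1 hz, map_mul, End.mul_apply]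
      exact ⟨c, fun _ => LinearMap.ext hc⟩
    · exact ⟨0, fun h => (hz h).elim⟩
  choose c hc using hz
  choose s hs hs' using fun x : E.map (QuotientGroup.mk' (center H)) => mem_map.1 x.2
  haveI := Fintype.ofFinite (E.map (QuotientGroup.mk' (center H)))
  rw [Nat.card_eq_fintype_card, ← Module.finrank_linearMap k k V V]
  exact (indep_of_weights (fun g : E => LinearMap.mulLeftRight k (ρ g, ρ g⁻¹)) (fun x => ρ (s x))
    (fun x g => c ⁅g.1, s x⁆) (fun x => ((Group.isUnit _).map ρ).ne_zero) (fun x y hxy => by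
      refine Subtype.ext ?_
      rw [← hs' x, ← hs' y]
      refine QuotientGroup.eq.2 (h2 _ (mul_mem (inv_mem (hs x)) (hs y)) fun g hg => ?_)
      have := congrFun hxy ⟨g⁻¹, inv_mem hg⟩
      have := hρ ((hc _ (h1 (commutator_mem_commutator (inv_mem hg) (hs x)))).trans
        ((congrArg (· • 1) this).trans (hc _ (h1 (commutator_mem_commutator (inv_mem hg) (hs y)))).symm))
      simp only [commutatorElement_def, inv_inv, mul_assoc, mul_right_inj] at this
      calc _ = (s x)⁻¹ * (s x * (g * (s x)⁻¹)) * s y := by simp [mul_assoc]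
        _ = _ := by rw [this]; simp [mul_assoc])
    fun g x => by
      rw [LinearMap.mulLeftRight_apply, ← smul_one_mul, ← hc _ (h1 (commutator_mem_commutator g.2 (hs x))),
        ← map_mul, ← map_mul, ← map_mul]
      simp [commutatorElement_def]).fintype_card_le_finrank

theorem exists_zmod_rep0 {Q A : Type} [Group Q] [AddCommGroup A] [Finite A] (l : ℕ) [Fact l.Prime]
    [Module (ZMod l) A] (φ : Q → A →+ A) (h1 : ∀ x, φ 1 x = x) (h2 : ∀ g h x, φ (g * h) x = φ g (φ h x)) :
    ∃ (V : Type) (_ : AddCommGroup V) (_ : Module (ZMod l) V) (_ : FiniteDimensional (ZMod l) V)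
      (ρ : Q →* End (ZMod l) V), Nat.card A = l ^ finrank (ZMod l) V ∧ ∀ q, ρ q = 1 ↔ ∀ x, φ q x = x := by
  refine ⟨A, inferInstance, inferInstance, Module.Finite.of_finite,
    ⟨⟨fun q => (φ q).toZModLinearMap l, LinearMap.ext h1⟩, fun g h => LinearMap.ext (h2 g h)⟩,
    ?_, fun q => LinearMap.ext_iff⟩
  have := Module.natCard_eq_pow_finrank (K := ZMod l) (V := A)
  rwa [Nat.card_zmod] at this

theorem exists_zmod_rep {Q : Type} [Group Q] (B : Subgroup Q) [B.Normal] [Finite B] (l : ℕ)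
    [Fact l.Prime] (hc : ∀ a ∈ B, ∀ b ∈ B, a * b = b * a) (hl : ∀ a ∈ B, a ^ l = 1) :
    ∃ (V : Type) (_ : AddCommGroup V) (_ : Module (ZMod l) V) (_ : FiniteDimensional (ZMod l) V)
      (ρ : Q →* End (ZMod l) V), Nat.card B = l ^ finrank (ZMod l) V ∧
        ∀ q, ρ q = 1 ↔ ∀ b ∈ B, q * b * q⁻¹ = b := by
  letI : CommGroup B := { (inferInstance : Group B) with
    mul_comm := fun a b => Subtype.ext (hc a a.2 b b.2) }
  obtain ⟨V, _, _, _, ρ, h1, h2⟩ := @exists_zmod_rep0 Q (Additive B) _ _ _ l _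
    (AddCommGroup.zmodModule fun a => Subtype.ext (hl _ a.toMul.2))
    (fun h => MonoidHom.toAdditive (MulAut.conjNormal h : MulAut B).toMonoidHom) (by simp) (by simp)
  refine ⟨V, _, _, inferInstance, ρ, h1, fun q => (h2 q).trans ⟨fun h b hb => ?_, fun h x => ?_⟩⟩
  · exact congrArg (fun x : Additive B => (x.toMul : Q)) (h (Additive.ofMul ⟨b, hb⟩))
  · exact Subtype.ext (h _ x.toMul.2)

theorem sq_lt_pow {m : ℕ} (h : 5 ≤ m) : m * m < 2 ^ m := by
  induction m, h using Nat.le_induction with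
  | base => norm_num
  | succ m h ih => rw [pow_succ]; nlinarith

theorem feit_tits {r : ℕ} (h9 : 9 ≤ r) (m : ℕ) : ∀ (H : Type) [Group H] [Finite H], Nat.card H = m →
    ∀ σ : H →* alternatingGroup (Fin r), Function.Surjective σ →
    ∀ (F V : Type) [Field F] [AddCommGroup V] [Module F V] [FiniteDimensional F V] (ρ : H →* End F V),
      (∀ h, ρ h = 1 → σ h = 1) → dd F r ≤ finrank F V := by
  induction m using Nat.strong_induction_on with
  | _ m ih =>
  intro H _ _ hm σ hσ F V _ _ _ _ ρ hρ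
  by_cases hmin : ∃ M : Subgroup H, M.map σ = ⊤ ∧ M ≠ ⊤
  · obtain ⟨M, h1, h2⟩ := hmin
    exact ih _ (hm ▸ (card_le_card_group M).lt_of_ne (mt (card_eq_iff_eq_top M).1 h2)) M rfl
      (σ.comp M.subtype) (fun x => by
        obtain ⟨y, hy, rfl⟩ := (h1.ge trivial : x ∈ M.map σ)
        exact ⟨⟨y, hy⟩, rfl⟩) F V (ρ.comp M.subtype) fun h => hρ h
  push Not at hmin
  haveI := alternatingGroup.isSimpleGroup (α := Fin r) (by simp; omega)
  have hN : ∀ N : Subgroup H, N.Normal → N ≠ ⊤ → N ≤ σ.ker := fun N hN h =>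
    (map_eq_bot_iff N).1 (((hN.map σ hσ).eq_bot_or_eq_top).resolve_right fun h' => h (hmin N h'))
  have hp : (⊤ : Subgroup H) ≤ ⁅⊤, ⊤⁆ := (hmin _ (by
    rw [map_commutator, map_top_of_surjective σ hσ]
    exact commutator_alternatingGroup_eq_top (by simp; omega))).ge
  have hQ : ∀ (F V : Type) [Field F] [AddCommGroup V] [Module F V] [FiniteDimensional F V]
      (ρ : H →* End F V), (∃ h, ρ h ≠ 1) → (∃ h, h ≠ 1 ∧ ρ h = 1) → dd F r ≤ finrank F V := by
    intro F V _ _ _ _ ρ ⟨g, hg⟩ ⟨h, h1, h2⟩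
    have hk := hN ρ.ker inferInstance fun h => hg (h.ge trivial : g ∈ ρ.ker)
    refine ih _ ?_ (H ⧸ ρ.ker) rfl (QuotientGroup.lift _ σ hk) (fun x => ?_) F V
      (QuotientGroup.lift _ ρ le_rfl) fun x => ?_
    · rw [← hm, ← ρ.ker.index_mul_card]
      exact lt_mul_of_one_lt_right Nat.card_pos ((one_lt_card_iff_ne_bot _).2
        ((ne_bot_iff_exists_ne_one).2 ⟨⟨h, h2⟩, fun h => h1 (congrArg Subtype.val h)⟩))
    · obtain ⟨y, rfl⟩ := hσ x
      exact ⟨y, rfl⟩
    · obtain ⟨y, rfl⟩ := QuotientGroup.mk_surjective x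
      exact fun h => hk h
  let k := AlgebraicClosure F
  suffices L : LB k (⊤ : Subgroup H) (dd k r) by
    have := L (k ⊗[F] V) (fun h => (ρ h).baseChange k) ⟨by simp, fun g _ h _ => by
      simp [LinearMap.baseChange_mul]⟩ (by
      obtain ⟨x, hx⟩ := exists_ne (1 : alternatingGroup (Fin r))
      obtain ⟨h, rfl⟩ := hσ x
      refine ⟨h, trivial, fun h0 => hx (hρ h (LinearMap.ext fun v => ?_))⟩
      have := LinearMap.congr_fun h0 (1 ⊗ₜ v)
      rwa [LinearMap.baseChange_tmul, End.one_apply, ← sub_eq_zero, ← TensorProduct.tmul_sub,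
        Module.FaithfullyFlat.one_tmul_eq_zero_iff, sub_eq_zero] at this)
    rw [Module.finrank_baseChange] at this
    convert this using 1
    have : (r : k) = 0 ↔ (r : F) = 0 := by rw [← map_natCast (algebraMap F k), map_eq_zero]
    unfold dd
    by_cases h : (r : F) = 0
    · rw [if_pos h, if_pos (this.2 h)]
    · rw [if_neg h, if_neg (mt this.1 h)]
  refine lb_of_irr hp fun W _ _ _ ρ0 R hn hI => ?_
  let ρ' : H →* End k W := ⟨⟨ρ0, R.one⟩, fun g h => R.mul g trivial h trivial⟩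
  by_contra h0
  have hf : Function.Injective ρ' := by
    by_contra hf
    refine h0 (hQ k W ρ' (hn.imp fun _ h => h.2) ?_)
    by_contra! hc
    refine hf fun g h e => ?_
    by_contra h1
    exact hc (g * h⁻¹) (by rwa [Ne, mul_inv_eq_one]) (by rw [map_mul, e, ← map_mul, mul_inv_cancel, map_one])
  haveI : Nontrivial W := by
    by_contra hW
    haveI := not_nontrivial_iff_subsingleton.1 hW
    obtain ⟨g, -, hg⟩ := hn
    exact hg (Subsingleton.elim _ _)
  have hd := dd_le (k := k) r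
  have hA : ∀ A : Subgroup H, A.Normal → (∀ a ∈ A, ∀ b ∈ A, a * b = b * a) → A ≤ center H :=
    fun A _ hc => (central_or_index ρ' hf hI hc).resolve_right fun ⟨M, h1, h2⟩ => by
      have b1 : M.normalCore.index ∣ M.index.factorial := by
        rw [normalCore_eq_ker, index_ker, index_eq_card, ← Nat.card_perm]
        exact card_subgroup_dvd_card (MulAction.toPermHom H (H ⧸ M)).range
      have b2 := index_dvd_of_le (hN _ M.normalCore_normal fun h => h1 (top_le_iff.1 (h ▸ M.normalCore_le)))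
      rw [index_ker, MonoidHom.range_eq_top.2 hσ, card_top] at b2
      haveI : Nontrivial (Fin r) := Fin.nontrivial_iff_two_le.2 (by omega)
      have b3 := two_mul_nat_card_alternatingGroup (α := Fin r)
      rw [Nat.card_perm, Nat.card_eq_fintype_card (α := Fin r), Fintype.card_fin,
        ← Nat.mul_factorial_pred (by omega)] at b3
      have b4 := (Nat.le_of_dvd (Nat.factorial_pos _) (b2.trans b1)).trans
        (Nat.factorial_le (show M.index ≤ r - 1 by omega))
      have := (r - 1).factorial_pos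
      nlinarith
  by_cases hK : σ.ker ≤ center H
  · obtain ⟨X, ζ, C⟩ := exists_cov (σ := σ) ⟨hσ, hK, le_top.trans hp⟩ (by simp; omega)
    obtain ⟨g, -, hg⟩ := hn
    exact h0 (lb_main C r Finset.univ (by simp) h9 W ρ0 (R.mono le_top)
      ⟨g, ⟨(σ g).2, by simp⟩, hg⟩)
  obtain ⟨E, ⟨hE, hEK, hEc⟩, hEm⟩ := exists_minimal_of_wellFoundedLT
    (fun E : Subgroup H => E.Normal ∧ E ≤ σ.ker ∧ ¬ E ≤ center H) ⟨σ.ker, inferInstance, le_rfl, hK⟩
  have e1 : ⁅E, E⁆ ≤ center H := by
    by_contra hc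
    have b1 : σ.ker ≤ frattini H := le_iInf₂ fun M hM => by
      by_contra h
      refine hM.1 (hmin M ?_)
      have := congrArg (map σ) (hM.2 _ (left_lt_sup.2 h))
      rwa [Subgroup.map_sup, (Subgroup.map_eq_bot_iff σ.ker).2 le_rfl, sup_bot_eq, map_top_of_surjective σ hσ] at this
    haveI := frattini_nilpotent (G := H)
    haveI : Group.IsSolvable E :=
      Group.isSolvable_of_isSolvable_injective (inclusion_injective (hEK.trans b1))
    haveI : Nontrivial E := (nontrivial_iff_ne_bot E).2 fun h => hEc (h ▸ bot_le)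
    refine (Group.IsSolvable.commutator_lt_top_of_nontrivial E).ne (map_subtype_inj.1 ?_)
    rw [map_subtype_commutator, ← MonoidHom.range_eq_map, range_subtype]
    exact le_antisymm (commutator_le_left E E)
      (hEm ⟨inferInstance, (commutator_le_left E E).trans hEK, hc⟩ (commutator_le_left E E))
  have e2 := card_le_sq ρ' hf hI e1 fun e he h => hA (E ⊓ centralizer E) inferInstance
    (fun a ha b hb => hb.2 a ha.1) ⟨he, h⟩
  have e3 : ∀ a ∈ E, ∀ b ∈ E, Commute (QuotientGroup.mk' (center H) a) (QuotientGroup.mk' _ b) :=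
    fun a ha b hb => commutatorElement_eq_one_iff_commute.1 (by
      rw [← map_commutatorElement]
      exact (QuotientGroup.eq_one_iff _).2 (e1 (commutator_mem_commutator ha hb)))
  set B := E.map (QuotientGroup.mk' (center H)) with hB
  haveI : B.Normal := hE.map _ (QuotientGroup.mk'_surjective _)
  obtain ⟨l, hl, hlB⟩ := Nat.exists_prime_and_dvd (n := Nat.card B) fun h => hEc (by
    rwa [card_eq_one, hB, Subgroup.map_eq_bot_iff, QuotientGroup.ker_mk'] at h)
  haveI := Fact.mk hl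
  obtain ⟨⟨_, x, hx, rfl⟩, hxl⟩ := exists_prime_orderOf_dvd_card' l hlB
  rw [← orderOf_coe] at hxl
  let M : Subgroup H :=
    { carrier := {e | e ∈ E ∧ QuotientGroup.mk' (center H) e ^ l = 1}
      one_mem' := ⟨one_mem _, by simp⟩
      mul_mem' := fun {a b} ha hb => ⟨mul_mem ha.1 hb.1, by
        rw [map_mul, (e3 a ha.1 b hb.1).mul_pow, ha.2, hb.2, one_mul]⟩
      inv_mem' := fun {a} ha => ⟨inv_mem ha.1, by rw [map_inv, inv_pow, ha.2, inv_one]⟩ }
  have e4 : E ≤ M := hEm (y := M) ⟨⟨fun a ha g => ⟨hE.conj_mem a ha.1 g, by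
      rw [map_mul, map_mul, map_inv, conj_pow, ha.2]; simp⟩⟩, fun a ha => hEK ha.1, fun h => by
      have := (QuotientGroup.eq_one_iff _).2 (h (show x ∈ M from ⟨hx, hxl ▸ pow_orderOf_eq_one _⟩))
      exact hl.ne_one (hxl.symm.trans (orderOf_eq_one_iff.2 this))⟩ fun a ha => ha.1
  obtain ⟨U, _, _, _, ρ1, e7, e5'⟩ := exists_zmod_rep B l (by
    rintro _ ⟨a, ha, rfl⟩ _ ⟨b, hb, rfl⟩
    exact (e3 a ha b hb).eq) (by rintro _ ⟨a, ha, rfl⟩; exact (e4 ha).2)
  have e5 : ∀ h, ρ1.comp (QuotientGroup.mk' _) h = 1 ↔ ∀ a ∈ E, ⁅h, a⁆ ∈ center H := fun h => by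
    simp only [MonoidHom.comp_apply, e5', hB, mem_map, forall_exists_index, and_imp,
      forall_apply_eq_imp_iff₂]
    refine forall₂_congr fun a _ => ?_
    rw [← QuotientGroup.eq_one_iff, commutatorElement_def, QuotientGroup.mk_mul, QuotientGroup.mk_inv,
      mul_inv_eq_one]
    rfl
  have e6 := hQ (ZMod l) U (ρ1.comp (QuotientGroup.mk' _)) (by
      by_contra! hc
      have b1 : ⁅⁅(⊤ : Subgroup H), E⁆, (⊤ : Subgroup H)⁆ = ⊥ := commutator_eq_bot_iff_le_centralizer.2
        ((commutator_le.2 fun g _ a ha => (e5 g).1 (hc g) a ha).trans (center_le_centralizer _))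
      have b2 := commutator_commutator_eq_bot_of_rotate b1 (by rwa [commutator_comm E])
      rw [top_le_iff.1 hp, commutator_comm, commutator_eq_bot_iff_le_centralizer, coe_top,
        centralizer_univ] at b2
      exact hEc b2) (by
      obtain ⟨a, ha, ha'⟩ := SetLike.not_le_iff_exists.1 hEc
      exact ⟨a, fun h => ha' (h ▸ one_mem _), (e5 a).2 fun b hb => e1 (commutator_mem_commutator ha hb)⟩)
  have e8 := (Nat.pow_le_pow_right two_pos ((le_dd r).trans e6)).trans
    (Nat.pow_le_pow_left hl.two_le _)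
  have e9 := sq_lt_pow (show 5 ≤ r - 2 by omega)
  have := Nat.mul_self_le_mul_self (show finrank k W ≤ r - 2 by omega)
  omega

open scoped MatrixGroups in
theorem alt_section_degree {F : Type*} [Field F] [Fintype F] (p : ℕ) [Fact p.Prime] [CharP F p]
    (n : ℕ) (r : ℕ) (H : Subgroup (GL (Fin n) F)) (K : Subgroup ↥H) [K.Normal]
    (h : Nonempty (↥H ⧸ K ≃* ↥(alternatingGroup (Fin r)))) (hr : 9 ≤ r) :
    r - 1 - (if p ∣ r then 1 else 0) ≤ n := by
  obtain ⟨e⟩ := h
  let k := AlgebraicClosure (ZMod p)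
  letI : Algebra (ZMod p) F := ZMod.algebra F p
  let φ : F →+* k := (IsAlgClosed.lift (R := ZMod p) (S := F) (M := k)).toRingHom
  let ψ : H →* End k (Fin n → k) := (Matrix.toLinAlgEquiv' (R := k)).toMonoidHom.comp
    (φ.mapMatrix.toMonoidHom.comp ((Units.coeHom _).comp H.subtype))
  have hψ : Function.Injective ψ := Matrix.toLinAlgEquiv'.injective.comp
    ((Matrix.map_injective φ.injective).comp (Units.val_injective.comp Subtype.val_injective))
  let s : Shrink.{0} H ≃* H := Shrink.mulEquiv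
  have := feit_tits hr _ (Shrink.{0} H) rfl
    (e.toMonoidHom.comp ((QuotientGroup.mk' K).comp s.toMonoidHom))
    (e.surjective.comp ((QuotientGroup.mk'_surjective K).comp s.surjective)) k (Fin n → k)
    (ψ.comp s.toMonoidHom) fun x hx => by
      have : s x = 1 := hψ (hx.trans (map_one ψ).symm)
      simp [this]
  rw [dd, finrank_fin_fun, CharP.cast_eq_zero_iff k p] at this
  split_ifs at this ⊢ <;> omega

end Cfsg.Lib.Alt
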