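import Cfsg.Agent.Lib.Alt.DegA

/-!
# Degrees of projective representations of alternating groups: representations of subgroups
-/

set_option autoImplicit false

namespace Cfsg.Lib.Alt

open Subgroup Equiv Equiv.Perm Cfsg.Lib.Pres Module
open scoped commutatorElement

variable {Ω : Type} [Fintype Ω] [DecidableEq Ω] {Γ : Type} [Group Γ]
variable {k V : Type} [Field k] [AddCommGroup V] [Module k V]

/-- A representation of a subgroup. -/
structure Rp (G : Subgroup Γ) (ρ : Γ → End k V) : Prop where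
  one : ρ 1 = 1
  mul : ∀ g ∈ G, ∀ h ∈ G, ρ (g * h) = ρ g * ρ h

/-- Invariance of a subspace. -/
def Inv (G : Subgroup Γ) (ρ : Γ → End k V) (U : Submodule k V) : Prop :=
  ∀ g ∈ G, ∀ v ∈ U, ρ g v ∈ U

/-- Irreducibility. -/
def Irr (G : Subgroup Γ) (ρ : Γ → End k V) : Prop := ∀ U, Inv G ρ U → U = ⊥ ∨ U = ⊤

/-- Lower bound for the degrees of non-trivial representations. -/
def LB (k : Type) [Field k] (G : Subgroup Γ) (d : ℕ) : Prop :=
  ∀ (V : Type) [AddCommGroup V] [Module k V] [FiniteDimensional k V] (ρ : Γ → End k V),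
    Rp G ρ → (∃ g ∈ G, ρ g ≠ 1) → d ≤ finrank k V

theorem inv_top (G : Subgroup Γ) (ρ : Γ → End k V) : Inv G ρ ⊤ := fun _ _ _ _ => trivial

namespace Rp

section general

variable {G G' : Subgroup Γ} {ρ : Γ → End k V} {g h : Γ}

theorem mono (R : Rp G ρ) (h : G' ≤ G) : Rp G' ρ :=
  ⟨R.one, fun g hg g' hg' => R.mul g (h hg) g' (h hg')⟩

theorem app (R : Rp G ρ) (hg : g ∈ G) (hh : h ∈ G) (v : V) :
    ρ (g * h) v = ρ g (ρ h v) := by rw [R.mul g hg h hh]; rfl

theorem inv_app (R : Rp G ρ) (hg : g ∈ G) (v : V) : ρ g⁻¹ (ρ g v) = v := by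
  rw [← R.app (inv_mem hg) hg, inv_mul_cancel, R.one]; rfl

theorem app_inv (R : Rp G ρ) (hg : g ∈ G) (v : V) : ρ g (ρ g⁻¹ v) = v := by
  rw [← R.app hg (inv_mem hg), mul_inv_cancel, R.one]; rfl

theorem inj (R : Rp G ρ) (hg : g ∈ G) : Function.Injective (ρ g) :=
  Function.LeftInverse.injective (R.inv_app hg)

theorem pow (R : Rp G ρ) (hg : g ∈ G) (n : ℕ) : ρ (g ^ n) = ρ g ^ n := by
  induction n with
  | zero => simp [R.one]
  | succ n ih => rw [pow_succ, R.mul _ (pow_mem hg n) _ hg, ih, pow_succ]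

/-- The elements acting trivially on a section. -/
def stab (R : Rp G ρ) {A : Submodule k V} (hA : Inv G ρ A) (B : Set V) : Subgroup Γ where
  carrier := {g | g ∈ G ∧ ∀ v ∈ B, ρ g v - v ∈ A}
  one_mem' := ⟨one_mem _, fun v _ => by simp [R.one]⟩
  mul_mem' := fun {g h} hg hh => ⟨mul_mem hg.1 hh.1, fun v hv => by
    have := A.add_mem (hA g hg.1 _ (hh.2 v hv)) (hg.2 v hv)
    rwa [map_sub, sub_add_sub_cancel, ← R.app hg.1 hh.1] at this⟩
  inv_mem' := fun {g} hg => ⟨inv_mem hg.1, fun v hv => by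
    have := A.neg_mem (hA _ (inv_mem hg.1) _ (hg.2 v hv))
    rwa [map_sub, R.inv_app hg.1, neg_sub] at this⟩

/-- The elements moving everything into `U`. -/
def into (R : Rp G ρ) (U : Submodule k V) : Subgroup Γ where
  carrier := {g | g ∈ G ∧ ∀ v, ρ g v - v ∈ U}
  one_mem' := ⟨one_mem _, fun v => by simp [R.one]⟩
  mul_mem' := fun {g h} hg hh => ⟨mul_mem hg.1 hh.1, fun v => by
    have := U.add_mem (hg.2 (ρ h v)) (hh.2 v)
    rwa [sub_add_sub_cancel, ← R.app hg.1 hh.1] at this⟩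
  inv_mem' := fun {g} hg => ⟨inv_mem hg.1, fun v => by
    have := U.neg_mem (hg.2 (ρ g⁻¹ v))
    rwa [R.app_inv hg.1, neg_sub] at this⟩

theorem inv_bot (_ : Rp G ρ) : Inv G ρ ⊥ := fun g _ v hv => by simp [(Submodule.mem_bot k).1 hv]

/-- Perfectness: trivial action on two consecutive sections gives trivial action. -/
theorem triv_trans (R : Rp G ρ) (hp : G ≤ ⁅G, G⁆) {A B D : Submodule k V}
    (hA : Inv G ρ A) (hD : Inv G ρ D) (h1 : ∀ g ∈ G, ∀ v ∈ B, ρ g v - v ∈ A)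
    (h2 : ∀ g ∈ G, ∀ v ∈ D, ρ g v - v ∈ B) (hg : g ∈ G) : ∀ v ∈ D, ρ g v - v ∈ A := by
  refine ((hp.trans (commutator_le.2 fun g hg h hh => ?_) : G ≤ R.stab hA D) hg).2
  refine ⟨mul_mem (mul_mem (mul_mem hg hh) (inv_mem hg)) (inv_mem hh), fun v hv => ?_⟩
  have hw := hD _ (inv_mem hg) _ (hD _ (inv_mem hh) v hv)
  have := A.sub_mem (h1 g hg _ (h2 h hh _ hw)) (h1 h hh _ (h2 g hg _ hw))
  rw [commutatorElement_def, R.app (mul_mem (mul_mem hg hh) (inv_mem hg)) (inv_mem hh),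
    R.app (mul_mem hg hh) (inv_mem hg), R.app hg hh]
  simp only [map_sub, R.app_inv hg, R.app_inv hh] at this
  convert this using 1
  abel

theorem exists_sect (R : Rp G ρ) {A B : Submodule k V} (hA : Inv G ρ A) (hB : Inv G ρ B) :
    ∃ ρ' : Γ → End k (B ⧸ A.comap B.subtype), Rp G ρ' ∧ ∀ g (hg : g ∈ G) (v : B),
      ρ' g (Submodule.Quotient.mk v) = Submodule.Quotient.mk ⟨ρ g v, hB g hg v v.2⟩ := by
  classical
  let ρ' : Γ → End k (B ⧸ A.comap B.subtype) := fun g => if hg : g ∈ G then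
    Submodule.mapQ _ _ ((ρ g).restrict (hB g hg)) (fun v hv => hA g hg _ hv) else 1
  have h1 : ∀ g (hg : g ∈ G) (v : B), ρ' g (Submodule.Quotient.mk v) =
      Submodule.Quotient.mk ⟨ρ g v, hB g hg v v.2⟩ := fun g hg v => by
    simp only [ρ', dif_pos hg]; rfl
  exact ⟨ρ', ⟨LinearMap.ext fun v => by
      obtain ⟨v, rfl⟩ := Submodule.Quotient.mk_surjective _ v
      rw [h1 1 (one_mem _)]; simp [R.one], fun g hg h hh => LinearMap.ext fun v => by
      obtain ⟨v, rfl⟩ := Submodule.Quotient.mk_surjective _ v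
      rw [End.mul_apply, h1 _ (mul_mem hg hh), h1 h hh, h1 g hg]
      simp [R.app hg hh]⟩, h1⟩

/-- On an irreducible non-trivial module there are no fixed vectors. -/
theorem eq_zero_of_fix (R : Rp G ρ) (hI : Irr G ρ) (hn : ∃ g ∈ G, ρ g ≠ 1) {v : V}
    (hv : ∀ g ∈ G, ρ g v = v) : v = 0 := by
  let U : Submodule k V :=
    { carrier := {v | ∀ g ∈ G, ρ g v = v}
      zero_mem' := fun g _ => map_zero _
      add_mem' := fun {v w} hv hw g hg => by rw [map_add, hv g hg, hw g hg]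
      smul_mem' := fun c v hv g hg => by rw [map_smul, hv g hg] }
  rcases hI U (fun g hg v hv h hh => by rw [hv g hg, hv h hh]) with h | h
  · exact (Submodule.mem_bot k).1 (h.le (show v ∈ U from hv))
  · obtain ⟨g, hg, hn⟩ := hn
    exact (hn (LinearMap.ext fun w => (h.ge trivial : w ∈ U) g hg)).elim

/-- Schur's lemma. -/
theorem schur [IsAlgClosed k] [FiniteDimensional k V] (hI : Irr G ρ) (f : End k V)
    (hf : ∀ g ∈ G, ∀ v, ρ g (f v) = f (ρ g v)) : ∃ c : k, ∀ v, f v = c • v := by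
  rcases subsingleton_or_nontrivial V with h | h
  · exact ⟨0, fun v => Subsingleton.elim _ _⟩
  obtain ⟨c, hc⟩ := Module.End.exists_eigenvalue f
  rcases hI (f.eigenspace c) (fun g hg v hv => by
    rw [End.mem_eigenspace_iff] at hv ⊢
    rw [← hf g hg, hv, map_smul]) with h | h
  · exact (hc h).elim
  · exact ⟨c, fun v => End.mem_eigenspace_iff.1 (h.ge trivial)⟩

end general

variable {τ : Γ →* Perm Ω} {X : Ω → Ω → Ω → Γ} {ζ : Γ} {S T : Finset Ω} {a b c d e f : Ω}
  {ρ : Γ → End k V} {g h : Γ}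

theorem cube (R : Rp (GS τ S) ρ) (C : Cov τ X ζ) (h : Tri S a b c) (v : V) :
    ρ (X a b c) (ρ (X a b c) (ρ (X a b c) v)) = v := by
  have := R.pow (C.mem h) 3
  rw [C.cube h.ab h.ac h.bc, R.one] at this
  simpa [pow_succ] using (LinearMap.congr_fun this v).symm

theorem conj (R : Rp (GS τ S) ρ) (C : Cov τ X ζ) (h : Tri S a b c) (hg : g ∈ GS τ S) (v : V) :
    ρ (X (τ g a) (τ g b) (τ g c)) (ρ g v) = ρ g (ρ (X a b c) v) := by
  rw [← C.conj g h.ab h.ac h.bc, R.app (mul_mem hg (C.mem h)) (inv_mem hg), R.inv_app hg,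
    R.app hg (C.mem h)]

theorem comm (R : Rp (GS τ S) ρ) (C : Cov τ X ζ) (h : Tri S a b c)
    (hg : g ∈ GS τ (S \ {a, b, c})) (v : V) : ρ g (ρ (X a b c) v) = ρ (X a b c) (ρ g v) := by
  have hg' := GS_mono τ Finset.sdiff_subset hg
  rw [← R.app hg' (C.mem h), C.comm h hg, R.app (C.mem h) hg']

theorem fix_of_gens (R : Rp (GS τ S) ρ) (C : Cov τ X ζ) (h4 : 4 ≤ S.card) (ha : a ∈ S) (hb : b ∈ S)
    (hab : a ≠ b) {v : V} (hv : ∀ i, Tri S a b i → ρ (X a b i) v = v) (hg : g ∈ GS τ S) :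
    ρ g v = v := by
  have := C.le_of_gens h4 ha hb hab (M := R.stab R.inv_bot {v})
    (fun i hi => ⟨C.mem hi, by simp [hv i hi]⟩) hg
  simpa [sub_eq_zero] using this.2 v rfl

theorem inv_of_gens (R : Rp (GS τ S) ρ) (C : Cov τ X ζ) (h4 : 4 ≤ S.card) (ha : a ∈ S) (hb : b ∈ S)
    (hab : a ≠ b) {U : Submodule k V} (hU : ∀ i, Tri S a b i → ∀ v, ρ (X a b i) v - v ∈ U) :
    Inv (GS τ S) ρ U := by
  intro g hg v hv
  simpa using U.add_mem ((C.le_of_gens h4 ha hb hab (M := R.into U)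
    (fun i hi => ⟨C.mem hi, hU i hi⟩) hg).2 v) hv

/-- One trivial `3`-cycle on a section makes the section trivial. -/
theorem triv_of_tri (R : Rp (GS τ S) ρ) (C : Cov τ X ζ) (h5 : 5 ≤ S.card) (h : Tri S a b c)
    {A B : Submodule k V} (hA : Inv (GS τ S) ρ A) (hB : Inv (GS τ S) ρ B)
    (h1 : ∀ v ∈ B, ρ (X a b c) v - v ∈ A) (hg : g ∈ GS τ S) : ∀ v ∈ B, ρ g v - v ∈ A := by
  refine (C.le_of_gens (by omega) h.ma h.mb h.ab (M := R.stab hA B) (fun i hi => ⟨C.mem hi,
    fun v hv => ?_⟩) hg).2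
  obtain ⟨g, hg, g1, g2, g3⟩ := C.exists_tri_map h5 h hi
  have := hA g hg _ (h1 _ (hB _ (inv_mem hg) v hv))
  rwa [map_sub, ← R.conj C h hg, R.app_inv hg, g1, g2, g3] at this

theorem ne_one (R : Rp (GS τ S) ρ) (C : Cov τ X ζ) (h5 : 5 ≤ S.card) (h : Tri S a b c)
    (hn : ∃ g ∈ GS τ S, ρ g ≠ 1) : ρ (X a b c) ≠ 1 := fun h0 => by
  obtain ⟨g, hg, hn⟩ := hn
  refine hn (LinearMap.ext fun v => ?_)
  simpa [sub_eq_zero] using R.triv_of_tri C h5 h R.inv_bot (inv_top _ _)
    (fun v _ => by simp [h0]) hg v trivial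

end Rp

theorem Rp.sect_of {G : Subgroup Γ} {d : ℕ} [FiniteDimensional k V] {ρ : Γ → End k V} (R : Rp G ρ)
    (L : ∀ (V' : Type) [AddCommGroup V'] [Module k V'] [FiniteDimensional k V'] (ρ' : Γ → End k V'),
      Rp G ρ' → (∃ g ∈ G, ρ' g ≠ 1) → (∀ g ∈ G, ρ g = 1 → ρ' g = 1) → d ≤ finrank k V')
    {A B : Submodule k V} (hAB : A ≤ B) (hA : Inv G ρ A)
    (hB : Inv G ρ B) (hn : ∃ g ∈ G, ∃ v ∈ B, ρ g v - v ∉ A) :
    finrank k A + d ≤ finrank k B := by
  obtain ⟨ρ', R', h1⟩ := R.exists_sect hA hB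
  have h2 := L _ ρ' R' (by
      obtain ⟨g, hg, v, hv, hn⟩ := hn
      refine ⟨g, hg, fun h0 => hn ?_⟩
      have := h1 g hg ⟨v, hv⟩
      rw [h0, End.one_apply, eq_comm, Submodule.Quotient.eq] at this
      exact this) fun g hg h0 => LinearMap.ext fun v => by
      obtain ⟨v, rfl⟩ := Submodule.Quotient.mk_surjective _ v
      rw [h1 g hg]; simp [h0]
  have h3 := Submodule.finrank_quotient_add_finrank (A.comap B.subtype)
  rw [(Submodule.comapSubtypeEquivOfLe hAB).finrank_eq] at h3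
  omega

theorem LB.sect {G : Subgroup Γ} {d : ℕ} (L : LB k G d) [FiniteDimensional k V]
    {ρ : Γ → End k V} (R : Rp G ρ) {A B : Submodule k V} (hAB : A ≤ B) (hA : Inv G ρ A)
    (hB : Inv G ρ B) (hn : ∃ g ∈ G, ∃ v ∈ B, ρ g v - v ∉ A) :
    finrank k A + d ≤ finrank k B :=
  R.sect_of (fun V' _ _ _ ρ' R' hn' _ => L V' ρ' R' hn') hAB hA hB hn

theorem LB.sub {G : Subgroup Γ} {d : ℕ} (L : LB k G d) [FiniteDimensional k V]
    {ρ : Γ → End k V} (R : Rp G ρ) {B : Submodule k V}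
    (hB : Inv G ρ B) (hn : ∃ g ∈ G, ∃ v ∈ B, ρ g v ≠ v) : d ≤ finrank k B := by
  simpa using L.sect R bot_le R.inv_bot hB (by simpa [sub_eq_zero] using hn)

theorem LB.mono {τ : Γ →* Perm Ω} {X : Ω → Ω → Ω → Γ} {ζ : Γ} (C : Cov τ X ζ) {S T : Finset Ω}
    {d : ℕ} (L : LB k (GS τ S) d) (h5 : 5 ≤ S.card) (hST : S ⊆ T) : LB k (GS τ T) d := by
  intro V _ _ _ ρ R hn
  obtain ⟨a, b, c, h⟩ := exists_tri (S := S) (by omega)
  exact L V ρ (R.mono (GS_mono τ hST)) ⟨_, C.mem h,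
    R.ne_one C (h5.trans (Finset.card_le_card hST)) (h.mono hST) hn⟩

theorem lb_of_irr {G : Subgroup Γ} (hp : G ≤ ⁅G, G⁆) {d : ℕ}
    (H : ∀ (V : Type) [AddCommGroup V] [Module k V] [FiniteDimensional k V] (ρ : Γ → End k V),
      Rp G ρ → (∃ g ∈ G, ρ g ≠ 1) → Irr G ρ → d ≤ finrank k V) : LB k G d := by
  intro V _ _ _ ρ R hn
  obtain ⟨B, hB, hBm⟩ := exists_minimal_of_wellFoundedLT
    (fun B : Submodule k V => Inv G ρ B ∧ ∃ g ∈ G, ∃ v ∈ B, ρ g v ≠ v)
    ⟨⊤, fun _ _ _ _ => trivial, by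
      obtain ⟨g, hg, hn⟩ := hn
      obtain ⟨v, hv⟩ := not_forall.1 (mt LinearMap.ext hn)
      exact ⟨g, hg, v, trivial, hv⟩⟩
  obtain ⟨A, hA, hAm⟩ := exists_maximal_of_wellFoundedGT
    (fun A : Submodule k V => Inv G ρ A ∧ A < B)
    ⟨⊥, R.inv_bot, bot_lt_iff_ne_bot.2 fun h0 => by
      obtain ⟨g, -, v, hv, hn⟩ := hB.2
      rw [h0, Submodule.mem_bot] at hv
      simp [hv] at hn⟩
  obtain ⟨ρ', R', h1⟩ := R.exists_sect hA.1 hB.1
  have h2 := H _ ρ' R' (by
      by_contra! hc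
      obtain ⟨g, hg, v, hv, hn⟩ := hB.2
      have b1 : ∀ g ∈ G, ∀ v ∈ A, ρ g v - v ∈ (⊥ : Submodule k V) := fun g hg v hv => by
        by_contra h0
        exact hA.2.not_ge (hBm (y := A) ⟨hA.1, g, hg, v, hv, fun h3 => h0 (by simp [h3])⟩ hA.2.le)
      have b2 : ∀ g ∈ G, ∀ v ∈ B, ρ g v - v ∈ A := fun g hg v hv => by
        have := h1 g hg ⟨v, hv⟩
        rw [hc g hg, End.one_apply, eq_comm, Submodule.Quotient.eq] at this
        exact this
      exact hn (by simpa [sub_eq_zero] using R.triv_trans hp R.inv_bot hB.1 b1 b2 hg v hv))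
    fun U hU => by
      let U' : Submodule k V := (U.comap (A.comap B.subtype).mkQ).map B.subtype
      have a1 : Inv G ρ U' := by
        rintro g hg _ ⟨v, hv, rfl⟩
        exact ⟨⟨ρ g v, hB.1 g hg v v.2⟩, (h1 g hg v ▸ hU g hg _ hv :), rfl⟩
      have a2 : A ≤ U' := fun v hv => ⟨⟨v, hA.2.le hv⟩, by
        change Submodule.Quotient.mk _ ∈ U
        rw [(Submodule.Quotient.mk_eq_zero _).2 (by exact hv)]; exact zero_mem _, rfl⟩
      rcases (Submodule.map_subtype_le B _ : U' ≤ B).lt_or_eq with a3 | a3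
      · refine Or.inl (eq_bot_iff.2 fun v hv => ?_)
        obtain ⟨v, rfl⟩ := Submodule.Quotient.mk_surjective _ v
        exact (Submodule.Quotient.mk_eq_zero _).2 (hAm (y := U') ⟨a1, a3⟩ a2 ⟨v, hv, rfl⟩)
      · refine Or.inr (eq_top_iff.2 fun v _ => ?_)
        obtain ⟨v, rfl⟩ := Submodule.Quotient.mk_surjective _ v
        obtain ⟨w, hw, h0⟩ : v.1 ∈ U' := a3.ge v.2
        rwa [← Subtype.ext h0]
  exact h2.trans ((Submodule.finrank_quotient_le _).trans (Submodule.finrank_le _))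

/-- Joint eigenvectors with distinct eigenvalue systems are linearly independent. -/
theorem indep_of_weights {ι J : Type} (f : ι → End k V) (v : J → V) (χ : J → ι → k)
    (hv : ∀ j, v j ≠ 0) (hχ : Function.Injective χ) (h : ∀ i j, f i (v j) = χ j i • v j) :
    LinearIndependent k v := by
  classical
  rw [linearIndependent_iff']
  intro s
  induction s using Finset.induction_on with
  | empty => simp
  | insert j s hj ih =>
    intro c hc
    have h1 : ∀ l ∈ s, c l = 0 := fun l hl => by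
      obtain ⟨i, hi⟩ := Function.ne_iff.1 (hχ.ne (show l ≠ j from fun h => hj (h ▸ hl)))
      have := ih (fun l => c l * (χ l i - χ j i)) (by
        have h2 := congrArg (fun w => f i w - χ j i • w) hc
        simp only [Finset.sum_insert hj, map_add, map_sum, map_smul, h, smul_add, Finset.smul_sum,
          map_zero, smul_zero, sub_zero, smul_smul, mul_comm (χ j i), add_sub_add_left_eq_sub,
          ← Finset.sum_sub_distrib, ← sub_smul, ← mul_sub] at h2
        exact h2) l hl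
      exact (mul_eq_zero.1 this).resolve_right (sub_ne_zero.2 hi)
    rw [Finset.sum_insert hj, Finset.sum_eq_zero (fun l hl => by rw [h1 l hl, zero_smul]),
      add_zero] at hc
    intro l hl
    rcases Finset.mem_insert.1 hl with rfl | hl
    · exact (smul_eq_zero.1 hc).resolve_right (hv _)
    · exact h1 l hl

/-- The halving lemma for Clifford-type relations. -/
theorem clifford_dvd [IsAlgClosed k] [FiniteDimensional k V] {W : Type} [AddCommGroup W] [Module k W]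
    [FiniteDimensional k W] (φ : W →ₗ[k] End k V) (B : W →ₗ[k] W →ₗ[k] k) (hs : ∀ v w, B v w = B w v)
    (n : ℕ) : ∀ (W' : Submodule k W) (U : Submodule k V),
    (∀ v ∈ W', ∀ w ∈ W', ∀ u, φ v (φ w u) + φ w (φ v u) = B v w • u) →
    (∀ v ∈ W', ∃ q : k, ∀ u, φ v (φ v u) = q • u) → (∀ v ∈ W', ∀ u ∈ U, φ v u ∈ U) →
    (∀ v ∈ W', v ≠ 0 → ∃ w ∈ W', B v w ≠ 0) → 2 * n ≤ finrank k W' → 2 ^ n ∣ finrank k U := by
  induction n with
  | zero => intros; simp
  | succ n ih =>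
  intro W' U h1 h2 h3 h4 h5
  by_cases hU : U = ⊥
  · subst hU; simp
  obtain ⟨u0, -, hu0⟩ := Submodule.exists_mem_ne_zero_of_ne_bot hU
  obtain ⟨e, he, he0, hee⟩ : ∃ e ∈ W', e ≠ 0 ∧ ∀ u, φ e (φ e u) = 0 := by
    obtain ⟨v, hv, hv0⟩ := Submodule.exists_mem_ne_zero_of_ne_bot (p := W')
      (fun h => by subst h; simp at h5)
    obtain ⟨w, hw, hw0⟩ : ∃ w ∈ W', w ∉ Submodule.span k {v} := by
      by_contra! h
      have := (Submodule.finrank_mono (show W' ≤ _ from h)).trans_eq (finrank_span_singleton hv0)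
      omega
    obtain ⟨q, hq⟩ := h2 v hv
    obtain ⟨q', hq'⟩ := h2 w hw
    by_cases h0 : q = 0
    · exact ⟨v, hv, hv0, by simpa [h0] using hq⟩
    obtain ⟨t, ht⟩ := IsAlgClosed.exists_root (Polynomial.C q * Polynomial.X ^ 2 +
      Polynomial.C (B v w) * Polynomial.X + Polynomial.C q') (by
        rw [Polynomial.degree_quadratic h0]; decide)
    refine ⟨w + t • v, W'.add_mem hw (W'.smul_mem t hv), fun h => hw0 ?_, fun u => ?_⟩
    · rw [eq_neg_of_add_eq_zero_left h]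
      exact neg_mem (Submodule.smul_mem _ _ (Submodule.mem_span_singleton_self v))
    · have := h1 v hv w hw u
      simp only [Polynomial.IsRoot, Polynomial.eval_add, Polynomial.eval_mul, Polynomial.eval_C,
        Polynomial.eval_pow, Polynomial.eval_X] at ht
      simp only [map_add, map_smul, LinearMap.add_apply, LinearMap.smul_apply, hq, hq']
      linear_combination (norm := module) t • this + ht • u
  obtain ⟨f0, hf0, hB0⟩ := h4 e he he0
  obtain ⟨f, hf, hB⟩ : ∃ f ∈ W', B e f = 1 :=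
    ⟨(B e f0)⁻¹ • f0, W'.smul_mem _ hf0, by simp [hB0]⟩
  have hBe : B e e = 0 := by
    have := h1 e he e he u0
    rw [hee, add_zero] at this
    exact (smul_eq_zero.1 this.symm).resolve_right hu0
  have hef := h1 e he f hf
  simp only [hB, one_smul] at hef
  let W'' := W' ⊓ (LinearMap.ker (B e) ⊓ LinearMap.ker (B f))
  let U' := U ⊓ LinearMap.ker (φ e)
  have a1 := ih W'' U' (fun v hv w hw => h1 v hv.1 w hw.1) (fun v hv => h2 v hv.1)
    (fun v hv u hu => ⟨h3 v hv.1 u hu.1, by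
      have := h1 e he v hv.1 u
      rw [show φ e u = 0 from hu.2, show B e v = 0 from hv.2.1] at this
      simpa using this⟩) (fun v hv hv0 => by
      obtain ⟨w, hw, hvw⟩ := h4 v hv.1 hv0
      refine ⟨w - (B f w - B e w * B f f) • e - B e w • f,
        ⟨sub_mem (sub_mem hw (W'.smul_mem _ he)) (W'.smul_mem _ hf), ?_, ?_⟩, ?_⟩
      · simp [hBe, hB]
      · simp [hs f e, hB]
      · simpa [hs v e, hs v f, show B e v = 0 from hv.2.1, show B f v = 0 from hv.2.2] using hvw)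
    (by
      have := LinearMap.finrank_range_add_finrank_ker (((B e).prod (B f)).domRestrict W')
      have h6 := Submodule.finrank_le (LinearMap.range (((B e).prod (B f)).domRestrict W'))
      rw [LinearMap.ker_domRestrict, LinearMap.ker_prod, ← Submodule.finrank_map_subtype_eq W',
        Submodule.map_comap_subtype] at this
      simp only [finrank_prod, finrank_self] at h6
      change _ + finrank k W'' = _ at this
      omega)
  have a2 : finrank k U = finrank k U' + finrank k U' := by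
    have b1 : LinearMap.range ((φ e).domRestrict U) = U' := le_antisymm (by
        rintro _ ⟨u, rfl⟩
        exact ⟨h3 e he _ u.2, hee _⟩) fun u hu => ⟨⟨φ f u, h3 f hf u hu.1⟩, by
        have := hef u
        rwa [show φ e u = 0 from hu.2, map_zero, add_zero] at this⟩
    have := LinearMap.finrank_range_add_finrank_ker ((φ e).domRestrict U)
    rw [b1, LinearMap.ker_domRestrict, ← Submodule.finrank_map_subtype_eq U,
      Submodule.map_comap_subtype] at this
    exact this.symm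
  rw [a2, ← two_mul, pow_succ']
  exact Nat.mul_dvd_mul_left 2 a1

end Cfsg.Lib.Alt
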