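import Cfsg.Agent.Lib.Alt.HallSym
import Cfsg.Agent.Lib.Hall.Solvable

/-! # Hall subgroups of symmetric and alternating groups: consequences -/

set_option autoImplicit false

namespace Cfsg.Lib.Alt

open Equiv Equiv.Perm MulAction Subgroup Cfsg.Lib.Hall
open scoped Pointwise

section
variable {G : Type*} [Group G] [Finite G] {π : Set ℕ}

/-- Hall `π`-subgroups exist and contain a conjugate of every `π`-subgroup. -/
def SylAn (π : Set ℕ) (G : Type*) [Group G] : Prop := IsEPiGroup π G ∧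
  ∀ H U : Subgroup G, IsPiHall π H → IsPiSubgroup π U → ∃ g, U.map (MulAut.conj g).toMonoidHom ≤ H

theorem SylAn.c (h : SylAn π G) : IsCPiGroup π G := ⟨h.1, fun H K hH hK =>
  (exists_conj_eq_of_conj_le hH hK (h.2 K H hK hH.1)).imp fun _ => Eq.symm⟩

omit [Finite G] in
theorem SylAn.ge (h : SylAn π G) {U : Subgroup G} (hU : IsPiSubgroup π U) :
    ∃ K, IsPiHall π K ∧ U ≤ K :=
  h.1.elim fun H hH => exists_isPiHall_ge_of_conj_le hH (h.2 H U hH hU)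

theorem SylAn.d (h : SylAn π G) : IsDPiGroup π G := fun H K hH hK => by
  obtain ⟨H', h1, h2⟩ := h.ge hH.1
  obtain ⟨K', k1, k2⟩ := h.ge hK.1
  exact h.c.2 H K (hH.eq_of_le h1.1 h2 ▸ h1) (hK.eq_of_le k1.1 k2 ▸ k1)

omit [Finite G] in
theorem sylAn_of_all (h : ∀ r : ℕ, r.Prime → r ∣ Nat.card G → r ∈ π) : SylAn π G :=
  ⟨⟨⊤, by rwa [Subgroup.card_top], by rw [index_top]; exact pi'_one⟩, fun H U hH _ => ⟨1, by
    rw [index_eq_one.1 (eq_one_of_pi_of_pi' (pi_of_dvd H.index_dvd_card h) hH.2)]; exact le_top⟩⟩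

theorem sylAn_of_one (h : ∀ r s : ℕ, r.Prime → s.Prime → r ∈ π → s ∈ π → r ∣ Nat.card G →
    s ∣ Nat.card G → r = s) : SylAn π G := by
  obtain ⟨p, hp, k⟩ : ∃ p : ℕ, p.Prime ∧ ∀ r : ℕ, r.Prime → r ∣ Nat.card G → (r ∈ π ↔ r = p) := by
    by_cases k : ∃ p : ℕ, p.Prime ∧ p ∈ π ∧ p ∣ Nat.card G
    · obtain ⟨p, h1, h2, h3⟩ := k
      exact ⟨p, h1, fun r r1 r2 => ⟨fun e => h r p r1 h1 e h2 r2 h3, fun e => e ▸ h2⟩⟩
    obtain ⟨p, h1, h2⟩ := Nat.exists_infinite_primes (Nat.card G + 1)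
    exact ⟨p, h2, fun r r1 r2 => iff_of_false (fun e => k ⟨r, r1, e, r2⟩) fun e => by
      have := Nat.le_of_dvd Nat.card_pos r2; omega⟩
  haveI := Fact.mk hp
  obtain ⟨P⟩ : Nonempty (Sylow p G) := inferInstance
  refine ⟨⟨P, fun r r1 r2 => (k r r1 (r2.trans P.1.card_subgroup_dvd_card)).2
    ((pi_singleton_iff hp).2 P.2 r r1 r2), fun r r1 r2 r3 => P.not_dvd_index
      ((k r r1 (r3.trans P.1.index_dvd_card)).1 r2 ▸ r3)⟩, fun H U hH hU => ?_⟩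
  obtain ⟨g, -, e⟩ := Transfer.exists_conj_le_of_not_dvd_relIndex' (T := H) (H := ⊤) (Q := U) (p := p)
    (fun e => by
      rw [relIndex_top_right] at e
      exact hH.2 p hp ((k p hp (e.trans H.index_dvd_card)).2 rfl) e)
    ((pi_singleton_iff hp).1 fun r r1 r2 => (k r r1 (r2.trans U.card_subgroup_dvd_card)).1 (hU r r1 r2))
    le_top
  exact ⟨g, e⟩

theorem exists_hall_ge_of_d (h : IsDPiGroup π G) {U : Subgroup G} (hU : IsPiSubgroup π U) :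
    ∃ K, IsPiHall π K ∧ U ≤ K := by
  obtain ⟨M, h1, h2⟩ := Finite.exists_le_maximal hU
  refine ⟨M, ⟨h2.1, fun p hp k => ?_⟩, h1⟩
  haveI := Fact.mk hp
  obtain ⟨P⟩ : Nonempty (Sylow p G) := inferInstance
  obtain ⟨N, h3, h4⟩ := Finite.exists_le_maximal (p := IsPiSubgroup π) (a := P.1) fun r r1 r2 =>
    ((pi_singleton_iff hp).2 P.2 r r1 r2 : r = p) ▸ k
  obtain ⟨g, rfl⟩ := h N M h4 h2
  rw [index_map_of_bijective (MulAut.conj g).bijective]
  exact fun e => P.not_dvd_index (e.trans (index_dvd_of_le h3))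

end

variable {α : Type*} [Fintype α] [DecidableEq α] {K : Subgroup (Perm α)} {π : Set ℕ}

omit [DecidableEq α] in
theorem le_fiber_of_dvd {β : Type*} (f : α → β) (h : ∀ g ∈ K, ∀ x, f (g (g x)) = f x) {t : ℕ}
    (ht : t.Prime) (h2 : t ≠ 2) (hd : t ∣ Nat.card K) : ∃ x, t ≤ {y | f y = f x}.ncard := by
  haveI := Fact.mk ht
  obtain ⟨⟨g, hg⟩, e⟩ := exists_prime_orderOf_dvd_card' t hd
  rw [orderOf_mk] at e
  obtain ⟨x, hx⟩ : ∃ x, g x ≠ x := by
    by_contra! k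
    exact ht.ne_one (e ▸ orderOf_eq_one_iff.2 (Equiv.ext k))
  have : g ∈ stabS {y | f y = f x} := mem_of_sq_mem (e ▸ ht.odd_of_ne_two h2) fun y => by
    simp [sq, h g hg]
  refine ⟨x, le_trans ?_ (Set.ncard_le_ncard (s := orbit (zpowers g) x) ?_)⟩
  · have := (stabilizer (zpowers g) x).index_dvd_card
    rw [Nat.card_zpowers, e, Nat.dvd_prime ht, index_eq_one, index_stabilizer] at this
    exact (this.resolve_left fun k => hx (k.ge (mem_top ⟨g, mem_zpowers g⟩))).ge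
  rintro _ ⟨u, rfl⟩
  exact (zpowers_le.2 this u.2 x).2 rfl

/-- The non-standard cases. -/
def Std (π : Set ℕ) (Δ : Set α) : Prop :=
  Δ.ncard + 1 = Fintype.card α ∧ (Fintype.card α).Prime ∧ 5 ≤ Fintype.card α ∧
    (∀ r : ℕ, r.Prime → r ≤ Fintype.card α → (r ∈ π ↔ r < Fintype.card α)) ∨
  Δ.ncard = 4 ∧ (Fintype.card α = 7 ∨ Fintype.card α = 8) ∧
    ∀ r : ℕ, r.Prime → r ≤ Fintype.card α → (r ∈ π ↔ r = 2 ∨ r = 3)

theorem hall_class (hK : ∀ p, p.Prime → p ∣ Nat.card K → p ∈ π) (hF : ∀ p, p.Prime → p ∈ π → Full p K)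
    (h2 : ∃ r s : ℕ, r.Prime ∧ s.Prime ∧ r ≠ s ∧ r ∈ π ∧ s ∈ π ∧ r ≤ Fintype.card α ∧
      s ≤ Fintype.card α) (hn : ∃ r : ℕ, r.Prime ∧ r ≤ Fintype.card α ∧ r ∉ π) :
    ∃ Δ, K ≤ pstab Δ ∧ Std π Δ := by
  obtain ⟨p, q, hp, hq, hpq, p1, q1, p2, q2⟩ := h2
  obtain ⟨r, r1, r2, r3⟩ := hn
  wlog hl : p < q generalizing p q
  · exact this q p hq hp hpq.symm q1 p1 q2 p2 (by omega)
  have t2 : 2 ∈ π := if e : p = 2 then e ▸ p1 else
    hK 2 Nat.prime_two (two_dvd_of_full hp hq e hl q2 (hF p hp p1) (hF q hq q1))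
  have t3 : 3 ∈ π := if e : q = 3 then e ▸ q1 else hK 3 Nat.prime_three (three_dvd_of_full hq
    (hq.five_le_of_ne_two_of_ne_three (by have := hp.two_le; omega) e) q2 (hF q hq q1)
    (hF 2 Nat.prime_two t2))
  obtain ⟨Δ, h, k⟩ := hall_two_three hK hF t2 t3 r1 r2 r3
  refine ⟨Δ, h, k.imp (fun ⟨k1, k2, k3⟩ => ⟨k1.trans k2.symm, k2 ▸ r1, k2 ▸
    r1.five_le_of_ne_two_of_ne_three (by rintro rfl; exact r3 t2) (by rintro rfl; exact r3 t3),
    fun t ht e => ⟨fun e' => e.lt_of_ne (by rintro rfl; exact r3 (k2 ▸ e')), fun e' => k3 t ht (k2 ▸ e')⟩⟩)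
    fun ⟨k1, k2, k3, k4⟩ => ⟨k1, k2, fun t ht e => ⟨fun e' => ?_, by rintro (rfl | rfl) <;> assumption⟩⟩⟩
  have : t ≤ 8 := by omega
  interval_cases t <;> simp_all (config := {decide := true})

omit [DecidableEq α] in
theorem Std.nontrivial {Δ : Set α} (h : Std π Δ) : Δ.Nontrivial :=
  Set.one_lt_ncard_iff_nontrivial.1 (by rcases h with h | h <;> omega)

theorem Std.isPiHall {Δ : Set α} (h : Std π Δ) : IsPiHall π (pstab Δ) := by
  have hc := Set.ncard_add_ncard_compl Δ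
  rw [Nat.card_eq_fintype_card] at hc
  have le : stabS Δ ≤ pstab Δ := fun _ => .inl
  have ix := relIndex_stabS (Set.subset_univ _) h.nontrivial (H := ⊤) (fun _ _ _ => Iff.rfl)
    fun _ _ _ => trivial
  rw [relIndex_top_right, Set.ncard_univ, Nat.card_eq_fintype_card] at ix
  refine ⟨fun t ht hd => ?_, fun t ht k hd => ?_⟩
  · have : t ≤ 2 ∨ t ≤ Δ.ncard ∨ t ≤ Δᶜ.ncard := by
      refine (eq_or_ne t 2).imp Eq.le fun e => ?_
      obtain ⟨x, hx⟩ := le_fiber_of_dvd (· ∈ Δ) (by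
        rintro g (k | k) x <;> simp [k]) ht e hd
      by_cases k : x ∈ Δ
      exacts [.inl (by simpa [k] using hx), .inr (by simpa [k] using! hx)]
    rcases h with h | h
    · exact (h.2.2.2 t ht (by omega)).2 (by omega)
    refine (h.2.2 t ht (by omega)).2 ?_
    have : t ≤ 4 := by omega
    interval_cases t <;> simp_all (config := {decide := true})
  have hd' := ix ▸ hd.trans (index_dvd_of_le le)
  rcases h with h | ⟨h1, h2, h3⟩
  · rw [← h.1, Nat.choose_succ_self_right, h.1, Nat.prime_dvd_prime_iff_eq ht h.2.1] at hd'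
    exact ((h.2.2.2 t ht hd'.le).1 k).ne hd'
  have t3 : t = 2 ∨ t = 3 := (h3 t ht (by
    by_contra! e
    exact absurd ((ht.dvd_factorial.1 (hd.trans (Fintype.card_perm (α := α) ▸
      Nat.card_eq_fintype_card (α := Perm α) ▸ (pstab Δ).index_dvd_card)))) e.not_ge)).1 k
  rw [h1] at ix hd'
  rcases h2 with h2 | h2 <;> rw [h2] at ix hd'
  · rcases t3 with rfl | rfl <;> exact absurd hd' (by decide)
  rcases t3 with rfl | rfl
  swap; · exact absurd hd' (by decide)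
  obtain ⟨a, -, -, a3⟩ := exists_even_image (Set.subset_univ Δ) (Set.subset_univ Δᶜ) (by omega)
    (Set.one_lt_ncard_iff_nontrivial.1 (by omega))
  have a4 : ∀ x, a x ∈ Δ ↔ x ∉ Δ := fun x => by
    rw [← not_iff_not, not_not, ← Set.mem_compl_iff, ← a3, a.injective.mem_set_image]
  obtain ⟨x, hx⟩ := Set.nonempty_of_ncard_ne_zero (s := Δ) (by omega)
  rw [← relIndex_mul_index le, (relIndex_eq_two_iff_exists_notMem_and (H := stabS Δ) (K := pstab Δ)).2 ⟨a, .inr a4,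
    fun k => (a4 x).1 ((k x).2 hx) hx, fun b hb => hb.symm.imp
      (fun k y => (k _).trans ((a4 y).not.trans not_not)) id⟩] at ix
  obtain ⟨m, hm⟩ := hd
  have : Nat.choose 8 4 = 70 := by decide
  omega

omit [DecidableEq α] in
theorem Std.ncard_eq {Δ Δ' : Set α} (h : Std π Δ) (h' : Std π Δ') : Δ'.ncard = Δ.ncard := by
  have : ∀ {Δ Δ' : Set α}, Std π Δ → Std π Δ' → Δ.ncard = 4 → Δ'.ncard = 4 := by
    rintro Δ Δ' (h | h) (k | k) e
    · omega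
    · omega
    · have := (h.2.2 5 Nat.prime_five (by omega)).1 ((k.2.2.2 5 Nat.prime_five (by omega)).2 (by omega))
      omega
    exact k.1
  have h1 := this h h'
  have h2 := this h' h
  rcases h with h | h <;> rcases h' with k | k <;> omega

theorem Std.conj {Δ Δ' : Set α} (h : Std π Δ) (h' : Std π Δ') :
    ∃ g ∈ alternatingGroup α, ∀ x ∈ pstab Δ, g * x * g⁻¹ ∈ pstab Δ' := by
  obtain ⟨g, g1, -, rfl⟩ := exists_even_image (Set.subset_univ Δ) (Set.subset_univ Δ') (h.ncard_eq h')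
    h.nontrivial
  have : ∀ y, y ∈ g '' Δ ↔ g⁻¹ y ∈ Δ := fun y => by
    rw [← g.injective.mem_set_image]; simp
  exact ⟨g, g1, fun x hx => hx.imp (fun k y => by simp [this, k]) fun k y => by simp [this, k]⟩

theorem hall_class_sym (hK : IsPiHall π K)
    (h2 : ∃ r s : ℕ, r.Prime ∧ s.Prime ∧ r ≠ s ∧ r ∈ π ∧ s ∈ π ∧ r ≤ Fintype.card α ∧
      s ≤ Fintype.card α) (hn : ∃ r : ℕ, r.Prime ∧ r ≤ Fintype.card α ∧ r ∉ π) :
    ∃ Δ, K ≤ pstab Δ ∧ Std π Δ :=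
  hall_class hK.1 (fun p hp k e => (isPiHallOf_inf_normal hK).2.2 p hp k
    ((inf_relIndex_right K _).symm ▸ e)) h2 hn

theorem hall_class_alt {M : Subgroup (alternatingGroup α)} (hM : IsPiHall π M)
    (h2 : ∃ r s : ℕ, r.Prime ∧ s.Prime ∧ r ≠ s ∧ r ∈ π ∧ s ∈ π ∧ r ≤ Fintype.card α ∧
      s ≤ Fintype.card α) (hn : ∃ r : ℕ, r.Prime ∧ r ≤ Fintype.card α ∧ r ∉ π) :
    ∃ Δ, M.map (alternatingGroup α).subtype ≤ pstab Δ ∧ Std π Δ :=
  have := isPiHallOf_map_subtype.2 hM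
  hall_class this.2.1 this.2.2 h2 hn

theorem isPiHall_subgroupOf_alt (hK : IsPiHall π K) :
    IsPiHall π (K.subgroupOf (alternatingGroup α)) := by
  rw [← isPiHallOf_map_subtype, subgroupOf_map_subtype]
  exact isPiHallOf_inf_normal hK

theorem le_of_dvd_card_perm {r : ℕ} (hr : r.Prime) (h : r ∣ Nat.card (Perm α)) :
    r ≤ Fintype.card α := by
  rwa [Nat.card_eq_fintype_card, Fintype.card_perm, hr.dvd_factorial] at h

theorem hall_cases (π : Set ℕ) : SylAn π (Perm α) ∧ SylAn π (alternatingGroup α) ∨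
    (∃ r s : ℕ, r.Prime ∧ s.Prime ∧ r ≠ s ∧ r ∈ π ∧ s ∈ π ∧ r ≤ Fintype.card α ∧
      s ≤ Fintype.card α) ∧ ∃ r : ℕ, r.Prime ∧ r ≤ Fintype.card α ∧ r ∉ π := by
  have d := (alternatingGroup α).card_subgroup_dvd_card
  refine or_iff_not_imp_right.2 fun k => (not_and_or.1 k).elim (fun k => ?_) fun k => ?_
  · have : ∀ r s : ℕ, r.Prime → s.Prime → r ∈ π → s ∈ π → r ∣ Nat.card (Perm α) →
        s ∣ Nat.card (Perm α) → r = s := fun r s h1 h2 h3 h4 h5 h6 => by_contra fun e =>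
      k ⟨r, s, h1, h2, e, h3, h4, le_of_dvd_card_perm h1 h5, le_of_dvd_card_perm h2 h6⟩
    exact ⟨sylAn_of_one this, sylAn_of_one fun r s h1 h2 h3 h4 h5 h6 =>
      this r s h1 h2 h3 h4 (h5.trans d) (h6.trans d)⟩
  have : ∀ r : ℕ, r.Prime → r ∣ Nat.card (Perm α) → r ∈ π := fun r h1 h2 => by_contra fun e =>
    k ⟨r, h1, le_of_dvd_card_perm h1 h2, e⟩
  exact ⟨sylAn_of_all this, sylAn_of_all fun r h1 h2 => this r h1 (h2.trans d)⟩

theorem exists_hall_ge_alt {M : Subgroup (alternatingGroup α)} (hM : IsPiHall π M) :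
    ∃ K : Subgroup (Perm α), IsPiHall π K ∧ M = K.subgroupOf (alternatingGroup α) := by
  obtain ⟨K, h1, h2⟩ : ∃ K, IsPiHall π K ∧ M.map (alternatingGroup α).subtype ≤ K :=
    (hall_cases π).elim (fun h => h.1.ge (isPiHallOf_map_subtype.2 hM).2.1) fun h =>
      (hall_class_alt hM h.1 h.2).elim fun _ k => ⟨_, k.2.isPiHall, k.1⟩
  exact ⟨K, h1, eq_of_isPiHallOf_of_le (isPiHallOf_top.2 hM) (map_le_iff_le_comap.1 h2) le_top
    (isPiHall_subgroupOf_alt h1).1⟩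

theorem isCPiGroup_sym (h : IsEPiGroup π (Perm α)) : IsCPiGroup π (Perm α) :=
  (hall_cases π).elim (·.1.c) fun k => ⟨h, fun H K hH hK => by
    obtain ⟨Δ, h1, h2⟩ := hall_class_sym hH k.1 k.2
    obtain ⟨Δ', h3, h4⟩ := hall_class_sym hK k.1 k.2
    obtain ⟨g, -, e⟩ := h2.conj h4
    refine (exists_conj_eq_of_conj_le hH hK ⟨g, ?_⟩).imp fun _ => Eq.symm
    rw [eq_of_isPiHallOf_of_le (isPiHallOf_top.2 hK) h3 le_top h4.isPiHall.1]
    rintro _ ⟨x, hx, rfl⟩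
    exact e x (h1 hx)⟩

theorem isCPiGroup_alt (h : IsEPiGroup π (alternatingGroup α)) : IsCPiGroup π (alternatingGroup α) :=
  (hall_cases π).elim (·.2.c) fun k => ⟨h, fun H K hH hK => by
    obtain ⟨Δ, h1, h2⟩ := hall_class_alt hH k.1 k.2
    obtain ⟨Δ', h3, h4⟩ := hall_class_alt hK k.1 k.2
    obtain ⟨g, hg, e⟩ := h2.conj h4
    refine (exists_conj_eq_of_conj_le hH hK ⟨⟨g, hg⟩, ?_⟩).imp fun _ => Eq.symm
    rw [eq_of_isPiHallOf_of_le (isPiHallOf_top.2 hK) (map_le_iff_le_comap.1 h3) le_top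
      (isPiHall_subgroupOf_alt h4.isPiHall).1]
    rintro _ ⟨x, hx, rfl⟩
    exact e x (h1 ⟨x, hx, rfl⟩)⟩

theorem not_d_prime {n : ℕ} (key : ∀ U : Subgroup (Perm (Fin n)), IsPiSubgroup π U → ∃ Δ, Std π Δ ∧
      ∀ g ∈ U, g ∈ alternatingGroup _ → g ∈ pstab Δ) {Δ₀ : Set (Fin n)}
    (h1 : Δ₀.ncard + 1 = Fintype.card (Fin n)) (h3 : (Fintype.card (Fin n)).Prime)
    (h4 : 5 ≤ Fintype.card (Fin n)) (h5 : ∀ r : ℕ, r.Prime → r ≤ Fintype.card (Fin n) →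
      (r ∈ π ↔ r < Fintype.card (Fin n))) : False := by
  rw [Fintype.card_fin] at h3 h4 h5
  obtain ⟨n, rfl⟩ : ∃ m, n = m + 5 := ⟨n - 5, by omega⟩
  have h01 : (0 : Fin (n + 5)) ≠ 1 := zero_ne_one
  have c2 := Set.ncard_add_ncard_compl ({0, 1} : Set (Fin (n + 5)))
  rw [Set.ncard_pair h01, Nat.card_fin] at c2
  obtain ⟨Δ, k1, k2⟩ := key (stabS {0, 1}) fun t ht hd => by
    suffices t < n + 5 from (h5 t ht this.le).2 this
    refine (eq_or_ne t 2).elim (by omega) fun e => ?_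
    obtain ⟨x, hx⟩ := le_fiber_of_dvd (· ∈ ({0, 1} : Set (Fin (n + 5))))
      (fun g hg x => propext ((hg _).trans (hg x))) ht e hd
    by_cases k : x ∈ ({0, 1} : Set (Fin (n + 5)))
    · simp only [k, eq_iff_iff, iff_true, Set.ofPred_mem_eq, Set.ncard_pair h01] at hx; omega
    · simp only [k, eq_iff_iff, iff_false] at hx; exact (hx.trans_eq (a := t) (c := n + 3) (by
        change Set.ncard ({0, 1}ᶜ : Set (Fin (n + 5))) = _; omega)).trans_lt (by omega)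
  have c3 := Set.ncard_add_ncard_compl Δ
  have c4 := Std.ncard_eq (.inl ⟨h1, by simpa, by simp, by simpa using h5⟩) k1
  rw [Fintype.card_fin] at h1
  rw [Nat.card_fin] at c3
  obtain ⟨z, hz⟩ := Set.ncard_eq_one.1 (show Δᶜ.ncard = 1 by omega)
  have hz' : ∀ y, y ∈ Δ ↔ y ≠ z := fun y => by
    rw [← not_iff_not, ← Set.mem_compl_iff, hz, not_not, Set.mem_singleton_iff]
  obtain ⟨c, d, c0, c1, d0, d1, cd, e⟩ : ∃ c d : Fin (n + 5), c ≠ 0 ∧ c ≠ 1 ∧ d ≠ 0 ∧ d ≠ 1 ∧ c ≠ d ∧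
      (z = 0 ∨ z = 1 ∨ z = c) := by
    have a1 : (⟨2, by omega⟩ : Fin (n + 5)) ≠ 0 ∧ (⟨2, by omega⟩ : Fin (n + 5)) ≠ 1 ∧
      (⟨3, by omega⟩ : Fin (n + 5)) ≠ 0 ∧ (⟨3, by omega⟩ : Fin (n + 5)) ≠ 1 ∧
      (⟨2, by omega⟩ : Fin (n + 5)) ≠ ⟨3, by omega⟩ := by simp [Fin.ext_iff]
    by_cases k : z = 0 ∨ z = 1 ∨ z = ⟨2, by omega⟩
    · exact ⟨_, _, a1.1, a1.2.1, a1.2.2.1, a1.2.2.2.1, a1.2.2.2.2, k⟩
    push Not at k
    exact ⟨z, _, k.1, k.2.1, a1.1, a1.2.1, k.2.2, .inr (.inr rfl)⟩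
  have := k2 (swap 0 1 * swap c d) (mem_stabS_of_maps (by
    rintro _ (rfl | rfl) <;> simp [swap_apply_def, c0.symm, c1.symm, d0.symm, d1.symm]))
    (by simp [cd, h01])
  rcases this with k | k
  · have := k z
    rcases e with rfl | rfl | rfl <;>
      simp [hz', swap_apply_def, c0.symm, c1.symm, d0.symm, d1.symm, d0, d1, cd.symm] at this
  obtain ⟨u, hu, v, hv, huv⟩ := k1.nontrivial
  exact huv ((swap 0 1 * swap c d).injective ((not_not.1 (mt (hz' _).2 (mt (k u).1 (not_not.2 hu)))).trans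
    (not_not.1 (mt (hz' _).2 (mt (k v).1 (not_not.2 hv)))).symm))

theorem not_d_aux {n : ℕ} (key : ∀ U : Subgroup (Perm (Fin n)), IsPiSubgroup π U → ∃ Δ, Std π Δ ∧
      ∀ g ∈ U, g ∈ alternatingGroup _ → g ∈ pstab Δ) {Δ₀ : Set (Fin n)} (h1 : Δ₀.ncard = 4)
    (h3 : n = 7 ∨ n = 8) (h4 : ∀ r : ℕ, r.Prime → r ≤ n → (r ∈ π ↔ r = 2 ∨ r = 3))
    (f : Fin n → ZMod 3) (hf : ∀ x, (Finset.univ.filter (f · = f x)).card ≤ 3) :
      ∃ s : Fin n → Bool, (Finset.univ.filter (s · = true)).card = 4 ∧ ∀ g : Perm (Fin n), sign g = 1 →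
      ((∀ x, f (g x) = f x) ∨ ∀ x, f (g x) = - f x) → (∀ x, s (g x) = s x) ∨ ∀ x, s (g x) = !s x := by
    let U : Subgroup (Perm (Fin n)) :=
      { carrier := {g | (∀ x, f (g x) = f x) ∨ ∀ x, f (g x) = - f x}
        one_mem' := .inl fun _ => rfl
        mul_mem' := by
          rintro a b (h1 | h1) (h2 | h2)
          exacts [.inl fun x => by simp [h1, h2], .inr fun x => by simp [h1, h2],
            .inr fun x => by simp [h1, h2], .inl fun x => by simp [h1, h2]]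
        inv_mem' := by
          rintro g (h | h)
          exacts [.inl fun x => by simpa using (h (g⁻¹ x)).symm,
            .inr fun x => by simpa [eq_neg_iff_add_eq_zero, add_comm] using h (g⁻¹ x)] }
    obtain ⟨Δ, k1, k2⟩ := key U fun t ht hd => by
      have : t ≤ 3 := (eq_or_ne t 2).elim (by omega) fun e => by
        obtain ⟨x, hx⟩ := le_fiber_of_dvd f (by rintro g (k | k) x <;> simp [k]) ht e hd
        exact hx.trans ((Set.ncard_eq_toFinset_card' _).trans_le (by simpa using hf x))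
      have := ht.two_le
      exact (h4 t ht (by omega)).2 (by omega)
    classical
    refine ⟨fun x => decide (x ∈ Δ), ?_, fun g g1 g2 => (k2 g g2 g1).imp (fun k x => by simp [k])
      fun k x => by simp [k]⟩
    rw [← (Std.ncard_eq (.inr ⟨h1, by simpa, by simpa using h4⟩) k1).trans h1,
      Set.ncard_eq_toFinset_card']
    congr 1
    ext; simp

theorem not_d_seven (s : Fin 7 → Bool) (h : (Finset.univ.filter (s · = true)).card = 4) :
    ¬ (((∀ x, s (![1, 2, 0, 3, 4, 5, 6] x) = s x) ∨ ∀ x, s (![1, 2, 0, 3, 4, 5, 6] x) = !s x) ∧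
      ((∀ x, s (![3, 4, 5, 0, 2, 1, 6] x) = s x) ∨ ∀ x, s (![3, 4, 5, 0, 2, 1, 6] x) = !s x)) := by
  revert s
  decide +kernel

theorem not_d_eight (s : Fin 8 → Bool) (h : (Finset.univ.filter (s · = true)).card = 4) :
    ¬ (((∀ x, s (![1, 2, 0, 3, 4, 5, 6, 7] x) = s x) ∨ ∀ x, s (![1, 2, 0, 3, 4, 5, 6, 7] x) = !s x) ∧
      ((∀ x, s (![3, 4, 5, 0, 2, 1, 6, 7] x) = s x) ∨ ∀ x, s (![3, 4, 5, 0, 2, 1, 6, 7] x) = !s x)) := by
  revert s
  decide +kernel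

theorem not_isDPiGroup_alt {n : ℕ} (h : IsDPiGroup π (alternatingGroup (Fin n)))
    (h2 : ∃ r s : ℕ, r.Prime ∧ s.Prime ∧ r ≠ s ∧ r ∈ π ∧ s ∈ π ∧ r ≤ n ∧ s ≤ n)
    (hn : ∃ r : ℕ, r.Prime ∧ r ≤ n ∧ r ∉ π) : False := by
  have key : ∀ U : Subgroup (Perm (Fin n)), IsPiSubgroup π U → ∃ Δ, Std π Δ ∧
      ∀ g ∈ U, g ∈ alternatingGroup _ → g ∈ pstab Δ := fun U hU => by
    obtain ⟨K, h1, h3⟩ := exists_hall_ge_of_d h (U := U.subgroupOf _) (pi_of_dvd (card_comap_dvd_of_injective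
      U _ (subtype_injective _)) hU)
    obtain ⟨Δ, h4, h5⟩ := hall_class_alt h1 (by simpa using h2) (by simpa using hn)
    exact ⟨Δ, h5, fun g g1 g2 => h4 ⟨⟨g, g2⟩, h3 g1, rfl⟩⟩
  obtain ⟨Δ₀, h0, -⟩ := key ⊥ (by rw [IsPiSubgroup, card_bot]; exact pi_one)
  rcases h0 with ⟨h1, h3, h4, h5⟩ | ⟨h1, h3, h4⟩
  · exact not_d_prime key h1 h3 h4 h5
  rw [Fintype.card_fin] at h3 h4
  have key2 := not_d_aux key h1 h3 h4
  rcases h3 with rfl | rfl
  · obtain ⟨s, s1, s2⟩ := key2 ![1, 1, 1, 2, 2, 2, 0] (by decide)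
    exact not_d_seven s s1 ⟨s2 ⟨![1, 2, 0, 3, 4, 5, 6], ![2, 0, 1, 3, 4, 5, 6], by decide, by decide⟩
      (by decide +kernel) (by decide), s2 ⟨![3, 4, 5, 0, 2, 1, 6], ![3, 5, 4, 0, 1, 2, 6], by decide,
        by decide⟩ (by decide +kernel) (by decide)⟩
  · obtain ⟨s, s1, s2⟩ := key2 ![1, 1, 1, 2, 2, 2, 0, 0] (by decide)
    exact not_d_eight s s1 ⟨s2 ⟨![1, 2, 0, 3, 4, 5, 6, 7], ![2, 0, 1, 3, 4, 5, 6, 7], by decide,
      by decide⟩ (by decide +kernel) (by decide), s2 ⟨![3, 4, 5, 0, 2, 1, 6, 7],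
        ![3, 5, 4, 0, 1, 2, 6, 7], by decide, by decide⟩ (by decide +kernel) (by decide)⟩

end Cfsg.Lib.Alt
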