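import Mathlib

/-! Abstract Shintani descent: elementary identities for a group automorphism. -/

set_option autoImplicit false

namespace Cfsg.Lib.Alt

variable {X : Type*} [Group X]

theorem shin_pow_comm (σ : MulAut X) (e : ℕ) (a : X) : σ ((σ ^ e) a) = (σ ^ e) (σ a) := by
  have h1 : σ ((σ ^ e) a) = (σ * σ ^ e) a := rfl
  have h2 : (σ ^ e) (σ a) = (σ ^ e * σ) a := rfl
  rw [h1, h2, ← pow_succ, ← pow_succ']

theorem shin_pow_fix (σ : MulAut X) (e : ℕ) {a : X} (h : σ a = a) : (σ ^ e) a = a := by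
  induction e with
  | zero => rfl
  | succ n ih =>
    have : (σ ^ (n + 1)) a = (σ ^ n) (σ a) := by rw [pow_succ]; rfl
    rw [this, h, ih]

theorem shin_norm (σ : MulAut X) (d : ℕ) (a : X) :
    ((List.range d).map (fun i => (σ ^ i) (a * (σ a)⁻¹))).prod = a * ((σ ^ d) a)⁻¹ := by
  induction d with
  | zero => simp
  | succ n ih =>
    rw [List.range_succ, List.map_append, List.prod_append, ih]
    have : (σ ^ (n + 1)) a = (σ ^ n) (σ a) := by rw [pow_succ]; rfl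
    simp [this, mul_assoc]

theorem shin_fix_iff (σ : MulAut X) (e : ℕ) (a : X) :
    (σ ^ e) (a * (σ a)⁻¹) = a * (σ a)⁻¹ ↔ σ (((σ ^ e) a)⁻¹ * a) = ((σ ^ e) a)⁻¹ * a := by
  rw [map_mul, map_inv, map_mul, map_inv, shin_pow_comm]
  constructor
  · intro h
    calc ((σ ^ e) (σ a))⁻¹ * σ a
        = ((σ ^ e) a)⁻¹ * ((σ ^ e) a * ((σ ^ e) (σ a))⁻¹) * σ a := by group
      _ = ((σ ^ e) a)⁻¹ * a := by rw [h]; group
  · intro h
    calc (σ ^ e) a * ((σ ^ e) (σ a))⁻¹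
        = (σ ^ e) a * (((σ ^ e) (σ a))⁻¹ * σ a) * (σ a)⁻¹ := by group
      _ = a * (σ a)⁻¹ := by rw [h]; group

theorem shin_mem_iff (σ : MulAut X) (a : X) :
    a ∈ (MulEquiv.toMonoidHom σ).eqLocus (MonoidHom.id X) ↔ σ a = a := Iff.rfl

/-- The solutions `c ∈ Y` of `y = c * (σ c)⁻¹` form a coset of the fixed points in `Y`. -/
theorem shin_fiber_card (σ : MulAut X) (Y : Subgroup X) {ι : Type*} (y : ι → X)
    (hy : ∀ z ∈ Y, ∃ c ∈ Y, z = c * (σ c)⁻¹) (hY : ∀ c ∈ Y, σ c ∈ Y) :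
    Nat.card {i : ι // y i ∈ Y} *
      Nat.card ↥(Y ⊓ (MulEquiv.toMonoidHom σ).eqLocus (MonoidHom.id X)) =
      Nat.card {p : ι × X // p.2 ∈ Y ∧ y p.1 = p.2 * (σ p.2)⁻¹} := by
  choose! c hc1 hc2 using hy
  rw [← Nat.card_prod]
  have hmem : ∀ p : {p : ι × X // p.2 ∈ Y ∧ y p.1 = p.2 * (σ p.2)⁻¹}, y p.1.1 ∈ Y := fun p => by
    rw [p.2.2]; exact Y.mul_mem p.2.1 (Y.inv_mem (hY _ p.2.1))
  refine Nat.card_congr
    { toFun := fun q => ⟨(q.1.1, c (y q.1.1) * q.2.1), Y.mul_mem (hc1 _ q.1.2) q.2.2.1, ?_⟩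
      invFun := fun p => (⟨p.1.1, hmem p⟩, ⟨(c (y p.1.1))⁻¹ * p.1.2,
        Y.mul_mem (Y.inv_mem (hc1 _ (hmem p))) p.2.1, ?_⟩)
      left_inv := ?_
      right_inv := ?_ }
  · have h2 : σ q.2.1 = q.2.1 := q.2.2.2
    simp only [map_mul, h2]
    rw [mul_inv_rev, mul_assoc, mul_inv_cancel_left]
    exact hc2 _ q.1.2
  · have h1 := hc2 _ (hmem p)
    have h2 := p.2.2
    set d := c (y p.1.1)
    change σ (d⁻¹ * p.1.2) = d⁻¹ * p.1.2
    rw [h1] at h2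
    rw [map_mul, map_inv]
    calc (σ d)⁻¹ * σ p.1.2 = d⁻¹ * (d * (σ d)⁻¹) * σ p.1.2 := by group
      _ = d⁻¹ * p.1.2 := by rw [h2]; group
  · intro q
    ext
    · rfl
    · simp
  · intro p
    ext
    · rfl
    · simp

end Cfsg.Lib.Alt
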